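import Cfsg.Agent.Helper3.Fam.Trv5d
import Cfsg.Agent.Helper3.Pat.CentTransport
import Cfsg.Agent.Helper3.Golay.M24Trans
import Cfsg.Agent.Helper3.Fam.OctTrio
import Cfsg.Agent.Helper3.Cls.Sweep
import Cfsg.Agent.Helper3.Fam.M9
import Cfsg.Agent.Helper3.Simple.M21

set_option autoImplicit false

namespace Cfsg.Agent.Helper3

open Cfsg
open scoped Pointwise

def zConjL : List (List ℕ) :=
  [[2, 1, 1, 4, 4, 0, 2, 0, 3, 2, 0, 0, 3, 3, 2, 3, 3, 0, 2, 1, 3, 2, 1, 3, 2, 1, 2, 0, 3, 1, 1, 4, 0, 3, 1, 4, 2, 0, 4, 1, 4, 2, 1, 3, 0, 4, 0, 3, 0, 4, 1, 3, 1, 1, 3, 0, 0, 3, 1, 4, 1, 2, 0, 4],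
   [1, 2, 0, 0, 3, 2, 1, 3, 0, 2, 0, 0, 4, 0, 2, 1, 3, 2, 0, 0, 3, 2, 0, 0, 4, 1, 4, 0, 0, 0, 3, 2, 1, 4, 0, 3, 3, 1, 1, 3, 0, 0, 3, 1, 4, 1, 2, 0, 4],
   [0, 0, 4, 4, 2, 0, 0, 3, 1, 2, 0, 3, 2, 0, 0, 3, 3, 2, 1, 2, 0, 4, 0, 4, 0, 0, 3, 0, 0, 4, 2, 3, 1, 3, 1, 3, 3, 0, 3, 1, 1, 1, 3, 2, 0, 3, 1, 2, 0, 3, 0, 4, 1, 1, 4, 0, 0, 4, 4],
   [0, 0, 2, 0, 0, 3, 2, 3, 2, 1, 3, 1, 2, 0, 3, 2, 0, 0, 3, 3, 2, 1, 4, 4, 1, 4, 4, 2, 1, 3, 3, 0, 0, 3, 1, 4, 1, 3, 3, 1, 1, 3, 0, 0, 3, 1, 4, 1, 2, 0, 4],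
   [4, 0, 0, 4, 2, 1, 4, 0, 0, 0, 4, 1, 3, 2, 0, 0, 0, 0, 4, 4, 1, 4, 2, 1, 3, 0, 4, 0, 3, 0, 4, 1, 1, 2, 0, 3, 0, 4, 1, 1, 4, 0, 0, 4, 4],
   [3, 3, 3, 0, 3, 0, 3, 0, 0, 0, 2, 1, 4, 4, 2, 0, 3, 3, 1, 2, 1, 1, 1, 4, 1, 4, 0, 0, 0, 3, 2, 1, 4, 0, 3, 1, 2, 0, 3, 0, 4, 1, 1, 4, 0, 0, 4, 4],
   [0, 4, 0, 4, 4, 2, 1, 4, 0, 2, 1, 3, 0, 4, 4, 1, 1, 1, 4, 2, 0, 3, 1, 1, 4, 0, 3, 1, 4, 2, 4, 4, 1, 4, 4, 2, 1, 3, 3, 0, 0, 3, 1, 4, 1],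
   [0, 3, 2, 1, 1, 4, 1, 1, 2, 3, 2, 0, 3, 3, 0, 4, 0, 0, 4, 2, 4, 1, 4, 1, 3, 3, 2, 1, 1, 4, 2, 1, 4, 1, 4, 1, 1, 3, 3, 1, 3, 0, 4, 1, 4, 1, 1, 2, 0, 3, 0, 4, 1, 1, 4, 0, 0, 4, 4],
   [0, 0, 4, 4, 2, 1, 4, 0, 2, 3, 2, 0, 4, 1, 3, 0, 0, 4, 1, 2, 3, 0, 3, 1, 4, 1, 3, 1, 4, 0, 3, 2, 0, 3, 1, 3, 1, 2, 0, 3, 0, 4, 1, 1, 4, 0, 0, 4, 4],
   [2, 1, 3, 2, 3, 2, 1, 3, 1, 2, 4, 1, 4, 1, 4, 1, 2, 0, 4, 0, 4, 0, 0, 3, 0, 0, 4, 2, 1, 3, 0, 4, 2, 1, 1, 1, 3, 0, 3, 1, 3, 1, 2, 0, 3, 0, 4, 1, 1, 4, 0, 0, 4, 4],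
   [0, 0, 0, 2, 1, 3, 2, 4, 2, 1, 3, 0, 3, 2, 4, 2, 0, 4, 1, 3, 0, 4, 0, 0, 3, 0, 0, 4, 2, 0, 3, 0, 4, 0, 0, 3, 0, 4, 2, 0, 3, 2, 0, 4],
   [2, 0, 0, 3, 2, 0, 3, 1, 3, 3, 1, 3, 0, 0, 2, 1, 1, 4, 1, 4, 1, 3, 0, 2, 0, 3, 0, 4, 1, 1, 4, 0, 4, 2, 0, 4, 2, 3, 0, 3, 1, 4, 1, 3, 1, 4, 0, 3, 2, 0, 3, 1],
   [0, 0, 0, 2, 1, 3, 2, 3, 2, 1, 3, 1, 2, 4, 1, 3, 1, 3, 1, 4, 0, 3, 3, 3, 1, 4, 0, 3, 0, 0, 0, 0, 4, 1, 3, 1, 4, 2, 0, 0, 4, 4, 2, 0, 4, 0, 3, 0],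
   [2, 1, 1, 4, 4, 0, 2, 0, 2, 1, 3, 0, 2, 0, 3, 2, 0, 0, 3, 3, 2, 1, 3, 3, 1, 4, 1, 1, 1, 3, 0, 3, 3, 0, 0, 4, 1, 4, 2, 1, 3, 0, 4, 0, 3, 0, 4, 1, 3, 1, 1, 3, 0, 0, 3, 1, 4, 1, 2, 0, 4],
   [0, 0, 0, 2, 1, 3, 2, 3, 2, 1, 3, 1, 2, 1, 1, 1, 1, 4, 1, 3, 0, 4, 4, 0, 3, 1, 3, 1, 3, 3, 0, 3, 1, 1, 1, 3, 2, 0, 3, 1, 2, 0, 3, 0, 4, 1, 1, 4, 0, 0, 4, 4]]

def zV1 : List ℕ := [3, 1, 3, 1, 3, 3, 0, 3, 1, 1, 1, 3, 2, 0]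

def zVU : List ℕ := [0, 0, 4, 4, 2, 0, 0, 3, 1, 2, 0, 3, 2, 0, 0, 3, 3, 2, 1, 2, 0, 4, 0, 4, 0, 0, 3, 0, 0, 4, 2, 3, 1, 3, 1, 3, 3, 0, 3, 1, 1, 1, 3, 2, 0, 3, 1, 2, 0, 3, 0, 4, 1, 1, 4, 0, 0, 4, 4]

theorem zConj_ok : octFixW.all (fun w => gWordEq w [] ||
    zConjL.any (fun u => gWordEq (u ++ w) (zW ++ u))) = true := by decide +kernel

theorem zVU_ok : gWordEq (zVU ++ zV1) (zW ++ zVU) = true := by decide +kernel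

/-- the matrix of a word, computably -/
def zMatW (w : List ℕ) : Matrix (Fin 5) (Fin 5) (ZMod 2) :=
  fun a b => if b = 1 then (if (zDf a).testBit (gWordAt w zF1) = true then 1 else 0)
    else (if (zDf a).testBit (gWordAt w (zFf b)) = true then 1 else 0) +
      (if (zDf a).testBit (gWordAt w zF1) = true then 1 else 0)

theorem zMat_word (w : List ℕ) : zMat (gWordPerm w) = zMatW w := by
  funext a b
  unfold zMat zMatW gDec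
  rw [word_apply_idx, word_apply_idx, gIdx_gPt (by decide : zF1 < 24), gIdx_gPt (zF_lt b)]

theorem zMatW_z : zMatW zW = q5Mat 1 0 0 0 0 0 0 := by decide +kernel

theorem zMatW_1 : zMatW zV1 = q5Mat 0 0 0 0 0 0 1 := by decide +kernel

theorem z0_mem : gWordPerm zW ∈ fSub (zc1X :: [q10AX]) 0 :=
  z_comm_mem (gWordPerm_mem_M24 zW) rfl

theorem z1_mem : gWordPerm zV1 ∈ fSub (zc1X :: [q10AX]) 0 := by
  apply z_comm_mem (gWordPerm_mem_M24 zV1)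
  have h : gWordEq (zV1 ++ zW) (zW ++ zV1) = true := by decide +kernel
  have h1 := gWordEq_sound h
  rw [gWordPerm_app, gWordPerm_app] at h1
  exact h1

theorem zTheta_z0 : zTheta s5 s5_val ⟨gWordPerm zW, z0_mem⟩ = s5A :=
  Subtype.ext (Subtype.ext ((zMat_word zW).trans zMatW_z))

theorem zTheta_z1 : zTheta s5 s5_val ⟨gWordPerm zV1, z1_mem⟩ = qEl 0 0 0 0 0 0 1 :=
  Subtype.ext (Subtype.ext ((zMat_word zV1).trans zMatW_1))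

/-- the isomorphism of the two centralizers -/
noncomputable def zIso : ↥(fSub (zc1X :: [q10AX]) 0) ≃* ↥A5 :=
  MulEquiv.ofBijective (zTheta s5 s5_val) zTheta_bij

theorem zIso_symm_z0_val : (zIso.symm s5A).1 = gWordPerm zW := by
  have h : zIso.symm s5A = ⟨gWordPerm zW, z0_mem⟩ := by
    rw [MulEquiv.symm_apply_eq]
    exact zTheta_z0.symm
  rw [h]

theorem zIso_symm_z1_val : (zIso.symm (qEl 0 0 0 0 0 0 1)).1 = gWordPerm zV1 := by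
  have h : zIso.symm (qEl 0 0 0 0 0 0 1) = ⟨gWordPerm zV1, z1_mem⟩ := by
    rw [MulEquiv.symm_apply_eq]
    exact zTheta_z1.symm
  rw [h]

/-- the embedding with image the centralizer of a conjugate -/
noncomputable def zIota (c : ↥M24) : ↥A5 →* ↥M24 :=
  (MulAut.conj c).toMonoidHom.comp
    ((Subgroup.inclusion (fSub_le (zc1X :: [q10AX]) 0)).comp zIso.symm.toMonoidHom)

theorem zIota_val (c : ↥M24) (x : ↥A5) :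
    ((zIota c x : ↥M24) : Equiv.Perm GolayPt) = c.1 * (zIso.symm x).1 * c.1⁻¹ := rfl

theorem zIota_inj (c : ↥M24) : Function.Injective (zIota c) := by
  intro x y h
  have h1 := congrArg Subtype.val h
  rw [zIota_val, zIota_val] at h1
  exact zIso.symm.injective (Subtype.ext (mul_left_cancel (mul_right_cancel h1)))

theorem zIota_range (c z : ↥M24) (hz : z.1 = c.1 * gWordPerm zW * c.1⁻¹) :
    (zIota c).range = Subgroup.centralizer ({z} : Set ↥M24) := by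
  ext x
  rw [Subgroup.mem_centralizer_iff]
  constructor
  · rintro ⟨a, rfl⟩ h hh
    rw [Set.mem_singleton_iff] at hh
    rw [hh]
    apply Subtype.ext
    rw [Subgroup.coe_mul, Subgroup.coe_mul, zIota_val, hz]
    have hcomm := z_mem_comm (zIso.symm a).2
    calc c.1 * gWordPerm zW * c.1⁻¹ * (c.1 * (zIso.symm a).1 * c.1⁻¹)
        = c.1 * (gWordPerm zW * (zIso.symm a).1) * c.1⁻¹ := by group
      _ = c.1 * ((zIso.symm a).1 * gWordPerm zW) * c.1⁻¹ := by rw [← hcomm]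
      _ = c.1 * (zIso.symm a).1 * c.1⁻¹ * (c.1 * gWordPerm zW * c.1⁻¹) := by group
  · intro hx
    have h1 := hx z (Set.mem_singleton z)
    have h2 : z.1 * x.1 = x.1 * z.1 := congrArg Subtype.val h1
    rw [hz] at h2
    have hy : c.1⁻¹ * x.1 * c.1 ∈ fSub (zc1X :: [q10AX]) 0 := by
      apply z_comm_mem (M24.mul_mem (M24.mul_mem (M24.inv_mem c.2) x.2) c.2)
      calc c.1⁻¹ * x.1 * c.1 * gWordPerm zW
          = c.1⁻¹ * (x.1 * (c.1 * gWordPerm zW * c.1⁻¹)) * c.1 := by group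
        _ = c.1⁻¹ * ((c.1 * gWordPerm zW * c.1⁻¹) * x.1) * c.1 := by rw [← h2]
        _ = gWordPerm zW * (c.1⁻¹ * x.1 * c.1) := by group
    refine ⟨zIso ⟨_, hy⟩, ?_⟩
    apply Subtype.ext
    rw [zIota_val, MulEquiv.symm_apply_apply]
    group

theorem z_conj_z0 (z : Equiv.Perm GolayPt) (hzM : z ∈ M24) (hz1 : z ≠ 1)
    (hfix : (Finset.univ.filter fun p : GolayPt => z p = p) ∈ octads) :
    ∃ c ∈ M24, z = c * gWordPerm zW * c⁻¹ := by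
  obtain ⟨h, hh, hO⟩ := M24_octad_trans _ gO0 hfix gO0_mem
  have hK : h * z * h⁻¹ ∈ gSub [] 5279 := by
    rw [mem_K]
    refine ⟨M24.mul_mem (M24.mul_mem hh hzM) (M24.inv_mem hh), ?_⟩
    intro p hp
    rw [← hO] at hp
    obtain ⟨q, hq, rfl⟩ := Finset.mem_smul_finset.1 hp
    have hq' : z q = q := (Finset.mem_filter.1 hq).2
    show h (z (h⁻¹ (h q))) = h q
    have e3 : h⁻¹ (h q) = q := by simp
    rw [e3, hq']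
  obtain ⟨w, hw, e⟩ := octFix_word _ hK
  have hchk := List.all_eq_true.1 zConj_ok w hw
  rw [Bool.or_eq_true] at hchk
  rcases hchk with h1 | h1
  · exfalso
    have h2 := gWordEq_sound h1
    rw [gWordPerm_nil] at h2
    rw [h2] at e
    apply hz1
    have e2 : z = h⁻¹ * (h * z * h⁻¹) * h := by group
    rw [e2, e]
    group
  · rw [List.any_eq_true] at h1
    obtain ⟨u, -, hu⟩ := h1
    have h2 := conj_sound hu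
    rw [← e] at h2
    refine ⟨(gWordPerm u * h)⁻¹, M24.inv_mem (M24.mul_mem (gWordPerm_mem_M24 u) hh), ?_⟩
    rw [← h2]
    group

theorem m24_octad_inv_large (z : ↥M24) (hz : orderOf z = 2)
    (hfix : (Finset.univ.filter fun p : GolayPt => (z : Equiv.Perm GolayPt) p = p) ∈ octads)
    (Q : Subgroup ↥M24)
    (hQ : Q = (Cfsg.pCore 2 ↥(Subgroup.centralizer ({z} : Set ↥M24))).map
      (Subgroup.centralizer ({z} : Set ↥M24)).subtype) :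
    Cfsg.IsExtraspecial 2 ↥Q ∧ Nat.card ↥Q = 2 ^ 7 ∧
      (∃ E : Subgroup ↥M24, E ≤ Q ∧ Cfsg.IsElementaryAbelian 2 E ∧ Nat.card ↥E = 2 ^ 4) ∧
      Cfsg.IsLargeExtraspecial Q ∧
      ∃ K : Subgroup ↥M24, K ≤ Subgroup.centralizer ({z} : Set ↥M24) ∧ Q ⊓ K = ⊥ ∧
        Q ⊔ K = Subgroup.centralizer ({z} : Set ↥M24) ∧
        Nonempty (↥K ≃* Matrix.SpecialLinearGroup (Fin 3) (ZMod 2)) := by
  have hz1 : (z : Equiv.Perm GolayPt) ≠ 1 := by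
    intro h
    have h' : z = 1 := Subtype.ext h
    rw [h', orderOf_one] at hz
    exact absurd hz (by decide)
  obtain ⟨c, hc, hzc⟩ := z_conj_z0 z.1 z.2 hz1 hfix
  obtain ⟨cM, hcM⟩ : ∃ cM : ↥M24, cM.1 = c := ⟨⟨c, hc⟩, rfl⟩
  rw [← hcM] at hzc
  have hs : zIota cM s5A = z := by
    apply Subtype.ext
    rw [zIota_val, zIso_symm_z0_val, hzc]
  have hconj := conj_sound zVU_ok
  obtain ⟨g, hg⟩ : ∃ g : ↥M24, g.1 = cM.1 * (gWordPerm zVU)⁻¹ * cM.1⁻¹ :=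
    ⟨⟨_, M24.mul_mem (M24.mul_mem cM.2 (M24.inv_mem (gWordPerm_mem_M24 zVU)))
      (M24.inv_mem cM.2)⟩, rfl⟩
  have hga : g * z * g⁻¹ = zIota cM (qEl 0 0 0 0 0 0 1) := by
    apply Subtype.ext
    rw [Subgroup.coe_mul, Subgroup.coe_mul, Subgroup.coe_inv, zIota_val, zIso_symm_z1_val, hg,
      hzc, ← hconj]
    group
  have hne : qEl 0 0 0 0 0 0 1 ≠ s5A := by
    intro h
    have h1 : q5Mat 0 0 0 0 0 0 1 = q5Mat 1 0 0 0 0 0 0 := congrArg (fun t : ↥A5 => t.1.1) h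
    revert h1
    decide +kernel
  exact cdata_transport s5A QA5 EA5 KA5 A5_data (zIota cM) (zIota_inj cM) z hs
    (zIota_range cM z hzc) g (qEl 0 0 0 0 0 0 1) (qEl_mem _ _ _ _ _ _ _) hga hne Q hQ

end Cfsg.Agent.Helper3
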