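import Cfsg.Agent.Helper3.Fam.Enum
import Cfsg.Agent.Helper3.Fam.Sext
import Cfsg.Agent.Helper3.Fam.Trio
import Cfsg.Agent.Helper3.Cls.Inv
import Cfsg.Agent.Helper3.Cls.Ord3

/-!
The numbers of octads, trios, sextets and dodecads fixed by the representatives of the classes
of elements of order 2 and 3.
-/

set_option autoImplicit false

namespace Cfsg.Agent.Helper3

open Cfsg
open scoped Pointwise

theorem tr_arr : aOrbOK [] m24G trX 3 120 trA 3795 = true := by decide +kernel

theorem sx_arr : aOrbOK [] m24G sxX 6 192 sxA 1771 = true := by decide +kernel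

def invRA_T : ℕ := 974422238081544939122441376219924512

def invRB_T : ℕ := 1795248432537898728475572672376535

def o3RA_T : ℕ := 977029090839134069678072307315218451

def o3RB_T : ℕ := 44673570877212604306017735907225623

theorem invRA_tab : tabOK invRA invRA_T = true := by decide +kernel

theorem invRB_tab : tabOK invRB invRB_T = true := by decide +kernel

theorem o3RA_tab : tabOK o3RA o3RA_T = true := by decide +kernel

theorem o3RB_tab : tabOK o3RB o3RB_T = true := by decide +kernel

/-! ### involutions with fixed points -/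

theorem invRA_fixO : {o | o ∈ octads ∧ gWordPerm invRA • o = o}.ncard = 71 :=
  (wFix_ncard invRA_tab 8).trans (by decide +kernel)

theorem invRA_fixT : {T | T ∈ trios ∧ gWordPerm invRA • T = T}.ncard = 99 :=
  aFix_ncard' trios_eq tr_arr tr_ok.1 invRA_tab 99 (by decide +kernel)

theorem invRA_fixS : {S | S ∈ sextets ∧ gWordPerm invRA • S = S}.ncard = 91 :=
  aFix_ncard' sextets_eq sx_arr sx_ok.1 invRA_tab 91 (by decide +kernel)

/-! ### involutions without fixed points -/

theorem invRB_fixO : {o | o ∈ octads ∧ gWordPerm invRB • o = o}.ncard = 15 :=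
  (wFix_ncard invRB_tab 8).trans (by decide +kernel)

theorem invRB_fixT : {T | T ∈ trios ∧ gWordPerm invRB • T = T}.ncard = 75 :=
  aFix_ncard' trios_eq tr_arr tr_ok.1 invRB_tab 75 (by decide +kernel)

theorem invRB_fixS : {S | S ∈ sextets ∧ gWordPerm invRB • S = S}.ncard = 51 :=
  aFix_ncard' sextets_eq sx_arr sx_ok.1 invRB_tab 51 (by decide +kernel)

/-! ### elements of order 3 with fixed points -/

theorem o3RA_fixO : {o | o ∈ octads ∧ gWordPerm o3RA • o = o}.ncard = 21 :=
  (wFix_ncard o3RA_tab 8).trans (by decide +kernel)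

theorem o3RA_fixD : {d | d ∈ dodecads ∧ gWordPerm o3RA • d = d}.ncard = 20 :=
  (wFix_ncard o3RA_tab 12).trans (by decide +kernel)

theorem o3RA_fixT : {T | T ∈ trios ∧ gWordPerm o3RA • T = T}.ncard = 15 :=
  aFix_ncard' trios_eq tr_arr tr_ok.1 o3RA_tab 15 (by decide +kernel)

theorem o3RA_fixS : {S | S ∈ sextets ∧ gWordPerm o3RA • S = S}.ncard = 16 :=
  aFix_ncard' sextets_eq sx_arr sx_ok.1 o3RA_tab 16 (by decide +kernel)

/-! ### elements of order 3 without fixed points -/

theorem o3RB_fixT : {T | T ∈ trios ∧ gWordPerm o3RB • T = T}.ncard = 15 :=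
  aFix_ncard' trios_eq tr_arr tr_ok.1 o3RB_tab 15 (by decide +kernel)

theorem o3RB_fixS : {S | S ∈ sextets ∧ gWordPerm o3RB • S = S}.ncard = 7 :=
  aFix_ncard' sextets_eq sx_arr sx_ok.1 o3RB_tab 7 (by decide +kernel)

end Cfsg.Agent.Helper3
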