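import Cfsg.Agent.Helper3.Fam.D5607
import Cfsg.Agent.Helper3.Fam.ClsCnt

/-!
The centralizer of a fixed-point-free involution of the group of the length-24 code: order
7680, transitive on the points, inside the stabilizer of a sextet.
-/

set_option autoImplicit false

namespace Cfsg.Agent.Helper3

open Cfsg
open scoped Pointwise

theorem conj_inv_conj {G : Type*} [Group G] (k c : G) : k⁻¹ * (k * c * k⁻¹) * k = c := by group

theorem conj_conj_inv {G : Type*} [Group G] (k c : G) : k * (k⁻¹ * c * k) * k⁻¹ = c := by group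

theorem syX_mem : gFam syX ∈ sextets := sextOK_mem (by decide +kernel)

theorem syX_fix : syX.all (fun m => Nat.beq (gPullU (tAt invRB_T) m) m) = true := by
  decide +kernel

theorem syX_lt : ∀ m ∈ syX, m < 2 ^ 24 := by decide +kernel

theorem sext_inv_check : gAllR 1771 (fun i =>
    !((gDecL 6 (aCode 192 sxA i)).all (fun m => Nat.beq (gPullU (tAt invRB_T) m) m)) ||
      gSameL (gDecL 6 (aCode 192 sxA i)) syX) = true := by decide +kernel

/-- the only sextet all of whose tetrads are invariant under the involution -/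
theorem sext_inv_unique {S : Finset (Finset GolayPt)} (hS : S ∈ sextets)
    (h : ∀ τ ∈ S, gWordPerm invRB • τ = τ) : S = gFam syX := by
  rw [sextets_eq, aOrb_enum sx_arr sx_ok.1] at hS
  obtain ⟨i, hi, rfl⟩ := hS
  have hc' : (!((gDecL 6 (aCode 192 sxA i)).all
      (fun m => Nat.beq (gPullU (tAt invRB_T) m) m)) ||
      gSameL (gDecL 6 (aCode 192 sxA i)) syX) = true :=
    (gAllR_iff 1771 _).1 sext_inv_check i hi
  rw [Bool.or_eq_true] at hc'
  rcases hc' with hc' | hc'
  · exfalso
    have hall : (gDecL 6 (aCode 192 sxA i)).all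
        (fun m => Nat.beq (gPullU (tAt invRB_T) m) m) = true := by
      rw [List.all_eq_true]
      intro m hm
      exact (tFixM_iff invRB_tab (gDecL_lt 6 _ m hm)).2 (h _ (mem_gFam.2 ⟨m, hm, rfl⟩))
    rw [hall] at hc'
    exact absurd hc' (by decide)
  · exact gFam_eq_of_same hc'

theorem invRB_sq (p : GolayPt) : gWordPerm invRB (gWordPerm invRB p) = p :=
  congrArg (fun f : Equiv.Perm GolayPt => f p) (ord2_facts invRB_ord).1

theorem czL_pairs : gFam czL = pairsOf (gWordPerm invRB) :=
  (gFam_eq_of_same (by decide +kernel)).trans (pairL_fam invRB_tab (by decide +kernel))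

theorem cent_sext {c : Equiv.Perm GolayPt} (hc : c ∈ M24)
    (hcomm : c * gWordPerm invRB = gWordPerm invRB * c) : c • gFam syX = gFam syX := by
  apply sext_inv_unique (smul_mem_sextets hc syX_mem)
  intro τ hτ
  obtain ⟨τ₀, hτ₀, rfl⟩ := Finset.mem_smul_finset.1 hτ
  obtain ⟨m, hm, rfl⟩ := mem_gFam.1 hτ₀
  have hfix := (tFixM_iff invRB_tab (syX_lt m hm)).1 (List.all_eq_true.1 syX_fix m hm)
  rw [← mul_smul, ← hcomm, mul_smul, hfix]

theorem cent_mem {c : Equiv.Perm GolayPt} (hc : c ∈ M24) :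
    c * gWordPerm invRB = gWordPerm invRB * c ↔ c ∈ fSub [czL, syX] 0 := by
  constructor
  · intro h
    refine ⟨hc, ?_, ptFix_zero c⟩
    intro A hA
    simp only [List.mem_cons, List.not_mem_nil, or_false] at hA
    rcases hA with rfl | rfl
    · rw [czL_pairs]
      exact pairs_smul_of_comm h
    · exact cent_sext hc h
  · intro h
    have h1 := h.2.1 czL List.mem_cons_self
    rw [czL_pairs] at h1
    exact comm_of_pairs_smul invRB_sq invRB_fpf h1

theorem czT_ok : czT.all (fun wc => fWordOK [czL, syX] 0 (gDecW 100 wc)) = true := by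
  decide +kernel

theorem czT_cov : gAllLt 24 (fun j => czT.any
    (fun wc => Nat.beq (gWordAt (gDecW 100 wc) 0) j)) = true := by decide +kernel

theorem cent2B_core (t k : Equiv.Perm GolayPt) (hk : k ∈ M24)
    (h : k * t * k⁻¹ = gWordPerm invRB) :
    Nat.card {c : Equiv.Perm GolayPt // c ∈ M24 ∧ c * t = t * c} = 7680 ∧
    (∀ p q : GolayPt, ∃ c ∈ M24, c * t = t * c ∧ c p = q) ∧
    ∃ S ∈ sextets, t • S = S ∧ ∀ c ∈ M24, c * t = t * c → c • S = S := by
  have key : ∀ c : Equiv.Perm GolayPt,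
      (c ∈ M24 ∧ c * t = t * c) ↔ k * c * k⁻¹ ∈ fSub [czL, syX] 0 := by
    intro c
    constructor
    · rintro ⟨hc, hct⟩
      have hcM : k * c * k⁻¹ ∈ M24 := M24.mul_mem (M24.mul_mem hk hc) (M24.inv_mem hk)
      refine (cent_mem hcM).1 ?_
      rw [← h]
      exact (comm_conj_iff k c t).2 hct
    · intro hm
      have hcM : k * c * k⁻¹ ∈ M24 := hm.1
      have hc : c ∈ M24 := by
        rw [← conj_inv_conj k c]
        exact M24.mul_mem (M24.mul_mem (M24.inv_mem hk) hcM) hk
      refine ⟨hc, ?_⟩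
      have h2 := (cent_mem hcM).2 hm
      rw [← h] at h2
      exact (comm_conj_iff k c t).1 h2
  refine ⟨?_, ?_, ?_⟩
  · rw [← cz_ok.2]
    exact Nat.card_congr (Equiv.subtypeEquiv (MulAut.conj k).toEquiv (fun c => key c))
  · intro p q
    obtain ⟨c, hc, hcpq⟩ := fSub_trans czT czT_ok czT_cov (k p) (k q)
    have hc' : k * (k⁻¹ * c * k) * k⁻¹ ∈ fSub [czL, syX] 0 := by
      rw [conj_conj_inv]
      exact hc
    obtain ⟨hM, hcomm⟩ := (key (k⁻¹ * c * k)).2 hc'
    refine ⟨k⁻¹ * c * k, hM, hcomm, ?_⟩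
    rw [Equiv.Perm.mul_apply, Equiv.Perm.mul_apply, hcpq, perm_inv_apply]
  · refine ⟨k⁻¹ • gFam syX, smul_mem_sextets (M24.inv_mem hk) syX_mem, ?_, ?_⟩
    · have hr : gWordPerm invRB • gFam syX = gFam syX := by
        have hm := (cent_mem (gWordPerm_mem_M24 invRB)).1 rfl
        exact hm.2.1 syX (List.mem_cons_of_mem _ List.mem_cons_self)
      have e : t = k⁻¹ * gWordPerm invRB * k := by
        rw [← h, conj_inv_conj]
      rw [e, mul_smul, mul_smul, smul_inv_smul, hr]
    · intro c hc hct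
      have hm := (key c).1 ⟨hc, hct⟩
      have h2 : (k * c * k⁻¹) • gFam syX = gFam syX :=
        hm.2.1 syX (List.mem_cons_of_mem _ List.mem_cons_self)
      rw [mul_smul, mul_smul] at h2
      rw [eq_inv_smul_iff]
      exact h2

end Cfsg.Agent.Helper3
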