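import Cfsg.Agent.Helper3.Fam.D1601
import Cfsg.Agent.Helper3.Fam.M11Cent2
import Cfsg.Agent.Helper2.PSLPerm

/-!
A homomorphism from SL(2, 11) onto the stabilizer of a dodecad, one of its points and a point
outside it, given by a table and checked on two generators.
-/

set_option autoImplicit false

namespace Cfsg.Agent.Helper3

open Cfsg
open scoped Pointwise

/-! ### quadruples modulo 11 -/

abbrev P11 := ℕ × ℕ × ℕ × ℕ

def p11mul (x y : P11) : P11 :=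
  ((x.1 * y.1 + x.2.1 * y.2.2.1) % 11, (x.1 * y.2.1 + x.2.1 * y.2.2.2) % 11,
   (x.2.2.1 * y.1 + x.2.2.2 * y.2.2.1) % 11, (x.2.2.1 * y.2.1 + x.2.2.2 * y.2.2.2) % 11)

def p11ok (x : P11) : Bool :=
  Nat.blt x.1 11 && Nat.blt x.2.1 11 && Nat.blt x.2.2.1 11 && Nat.blt x.2.2.2 11 &&
    Nat.beq ((x.1 * x.2.2.2) % 11) ((x.2.1 * x.2.2.1 + 1) % 11)

def p11eq (x y : P11) : Bool :=
  Nat.beq x.1 y.1 && Nat.beq x.2.1 y.2.1 && Nat.beq x.2.2.1 y.2.2.1 && Nat.beq x.2.2.2 y.2.2.2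

theorem p11eq_iff {x y : P11} (h : p11eq x y = true) : x = y := by
  obtain ⟨a, b, c, d⟩ := x
  obtain ⟨e, f, g, k⟩ := y
  simp only [p11eq, Bool.and_eq_true] at h
  obtain ⟨⟨⟨h1, h2⟩, h3⟩, h4⟩ := h
  rw [Nat.eq_of_beq_eq_true h1, Nat.eq_of_beq_eq_true h2, Nat.eq_of_beq_eq_true h3,
    Nat.eq_of_beq_eq_true h4]

/-! ### the table -/

def pCode (x : P11) : ℕ := ((x.1 * 11 + x.2.1) * 11 + x.2.2.1) * 11 + x.2.2.2

def pEnt (x : P11) : ℕ :=
  Nat.land (Nat.shiftRight (q01Ch.getD (pCode x / 256) 0) (144 * (pCode x % 256))) (2 ^ 144 - 1)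

def pImg (x : P11) (i : ℕ) : ℕ := Nat.land (Nat.shiftRight (pEnt x) (5 * i)) 31

def pGen (x : P11) : Bool := Nat.testBit (pEnt x) 121

def pDepth (x : P11) : ℕ := Nat.shiftRight (pEnt x) 128

def pS : P11 := (0, 1, 10, 0)

def pT : P11 := (1, 1, 0, 1)

def pSi : P11 := (0, 10, 1, 0)

def pTi : P11 := (1, 10, 0, 1)

def pAll (P : P11 → Bool) : Bool :=
  gAllLt 11 (fun a => gAllLt 11 (fun b => gAllLt 11 (fun c => gAllLt 11 (fun d =>
    !p11ok (a, b, c, d) || P (a, b, c, d)))))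

/-- the table is multiplicative on the two generators -/
theorem pC1 : pAll (fun x => gAllLt 24 (fun i =>
    Nat.beq (pImg (p11mul pS x) i) (pImg pS (pImg x i)) &&
    Nat.beq (pImg (p11mul pT x) i) (pImg pT (pImg x i)))) = true := by decide +kernel

/-- every element other than the identity is a generator times an element of smaller depth -/
theorem pC2 : pAll (fun x => p11eq x (1, 0, 0, 1) ||
    (p11ok (p11mul (bif pGen x then pTi else pSi) x) &&
      Nat.blt (pDepth (p11mul (bif pGen x then pTi else pSi) x)) (pDepth x) &&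
      p11eq (p11mul (bif pGen x then pT else pS) (p11mul (bif pGen x then pTi else pSi) x)) x))
    = true := by decide +kernel

/-- the kernel -/
theorem pC3 : pAll (fun x => !(gAllLt 24 (fun i => Nat.beq (pImg x i) i)) ||
    p11eq x (1, 0, 0, 1) || p11eq x (10, 0, 0, 10)) = true := by decide +kernel

theorem pC4 : (gAllLt 24 (fun i => Nat.beq (pImg (1, 0, 0, 1) i) i) &&
    gAllLt 24 (fun i => Nat.beq (pImg (10, 0, 0, 10) i) i)) = true := by decide +kernel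

theorem pC5 : (fWordOK [q011X, q022X, q021X] 0 q01wS && fWordOK [q011X, q022X, q021X] 0 q01wT &&
    gAllLt 24 (fun i => Nat.beq (gWordAt q01wS i) (pImg pS i)) &&
    gAllLt 24 (fun i => Nat.beq (gWordAt q01wT i) (pImg pT i))) = true := by decide +kernel

/-! ### matrices -/

instance p11_fact : Fact (Nat.Prime 11) := ⟨by norm_num⟩

abbrev SL11 := Matrix.SpecialLinearGroup (Fin 2) (ZMod 11)

def p11mat (x : P11) : Matrix (Fin 2) (Fin 2) (ZMod 11) :=
  !![(x.1 : ZMod 11), (x.2.1 : ZMod 11); (x.2.2.1 : ZMod 11), (x.2.2.2 : ZMod 11)]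

def p11red (x : P11) : Prop := x.1 < 11 ∧ x.2.1 < 11 ∧ x.2.2.1 < 11 ∧ x.2.2.2 < 11

theorem p11mat_mul (x y : P11) : p11mat (p11mul x y) = p11mat x * p11mat y := by
  obtain ⟨a, b, c, d⟩ := x
  obtain ⟨e, f, g, h⟩ := y
  simp only [p11mat, p11mul, Matrix.mul_fin_two, ZMod.natCast_mod]
  push_cast
  rfl

theorem p11mul_red (x y : P11) : p11red (p11mul x y) := by
  refine ⟨?_, ?_, ?_, ?_⟩ <;> exact Nat.mod_lt _ (by norm_num)

theorem p11mat_inj {x y : P11} (hx : p11red x) (hy : p11red y) (h : p11mat x = p11mat y) :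
    x = y := by
  obtain ⟨a, b, c, d⟩ := x
  obtain ⟨e, f, g, k⟩ := y
  obtain ⟨ha, hb, hc, hd⟩ := hx
  obtain ⟨he, hf, hg, hk⟩ := hy
  simp only at ha hb hc hd he hf hg hk
  have h00 := congrFun (congrFun h 0) 0
  have h01 := congrFun (congrFun h 0) 1
  have h10 := congrFun (congrFun h 1) 0
  have h11 := congrFun (congrFun h 1) 1
  simp only [p11mat, Matrix.of_apply, Matrix.cons_val_zero, Matrix.cons_val_one,
    Matrix.cons_val', Matrix.cons_val_fin_one] at h00 h01 h10 h11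
  rw [ZMod.natCast_eq_natCast_iff'] at h00 h01 h10 h11
  rw [Nat.mod_eq_of_lt ha, Nat.mod_eq_of_lt he] at h00
  rw [Nat.mod_eq_of_lt hb, Nat.mod_eq_of_lt hf] at h01
  rw [Nat.mod_eq_of_lt hc, Nat.mod_eq_of_lt hg] at h10
  rw [Nat.mod_eq_of_lt hd, Nat.mod_eq_of_lt hk] at h11
  subst h00 h01 h10 h11
  rfl

def pQ (M : SL11) : P11 := ((M.1 0 0).val, (M.1 0 1).val, (M.1 1 0).val, (M.1 1 1).val)

theorem pQ_mat (M : SL11) : p11mat (pQ M) = M.1 := by
  ext i j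
  fin_cases i <;> fin_cases j <;> simp [p11mat, pQ]

theorem pQ_red (M : SL11) : p11red (pQ M) :=
  ⟨ZMod.val_lt (M.1 0 0), ZMod.val_lt (M.1 0 1), ZMod.val_lt (M.1 1 0), ZMod.val_lt (M.1 1 1)⟩

theorem pQ_inj {M N : SL11} (h : pQ M = pQ N) : M = N := by
  apply Subtype.ext
  rw [← pQ_mat M, ← pQ_mat N, h]

theorem pQ_mul (M N : SL11) : pQ (M * N) = p11mul (pQ M) (pQ N) := by
  apply p11mat_inj (pQ_red _) (p11mul_red _ _)
  rw [pQ_mat, p11mat_mul, pQ_mat, pQ_mat]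
  rfl

theorem pQ_ok (M : SL11) : p11ok (pQ M) = true := by
  have hdet : M.1 0 0 * M.1 1 1 - M.1 0 1 * M.1 1 0 = 1 := by
    have h := M.2
    rwa [Matrix.det_fin_two] at h
  have h1 : (((M.1 0 0).val * (M.1 1 1).val : ℕ) : ZMod 11) =
      (((M.1 0 1).val * (M.1 1 0).val + 1 : ℕ) : ZMod 11) := by
    push_cast
    simp only [ZMod.natCast_zmod_val]
    linear_combination hdet
  have h2 := (ZMod.natCast_eq_natCast_iff' _ _ _).1 h1
  obtain ⟨r1, r2, r3, r4⟩ := pQ_red M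
  unfold p11ok
  simp only [Bool.and_eq_true]
  exact ⟨⟨⟨⟨Nat.blt_eq.mpr r1, Nat.blt_eq.mpr r2⟩, Nat.blt_eq.mpr r3⟩, Nat.blt_eq.mpr r4⟩, nbeq h2⟩

theorem pAll_spec {P : P11 → Bool} (h : pAll P = true) {x : P11} (hx : p11ok x = true) :
    P x = true := by
  obtain ⟨a, b, c, d⟩ := x
  have hx' := hx
  unfold p11ok at hx'
  simp only [Bool.and_eq_true] at hx'
  obtain ⟨⟨⟨⟨ha, hb⟩, hc⟩, hd⟩, -⟩ := hx'
  have h1 := (gAllLt_iff _ _).1 h a (Nat.blt_eq.mp ha)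
  have h2 := (gAllLt_iff _ _).1 h1 b (Nat.blt_eq.mp hb)
  have h3 := (gAllLt_iff _ _).1 h2 c (Nat.blt_eq.mp hc)
  have h4 := (gAllLt_iff _ _).1 h3 d (Nat.blt_eq.mp hd)
  rw [hx] at h4
  simpa using h4

end Cfsg.Agent.Helper3
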