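import Cfsg.Agent.Helper3.Fam.PslTab

/-!
The table of `PslTab` defines a surjective homomorphism from SL(2, 11) onto the reference
subgroup of order 660, with kernel the centre.
-/

set_option autoImplicit false

namespace Cfsg.Agent.Helper3

open Cfsg
open scoped Pointwise

theorem pC1S {x : P11} (hx : p11ok x = true) {i : ℕ} (hi : i < 24) :
    pImg (p11mul pS x) i = pImg pS (pImg x i) := by
  have h := (gAllLt_iff _ _).1 (pAll_spec pC1 hx) i hi
  rw [Bool.and_eq_true] at h
  exact Nat.eq_of_beq_eq_true h.1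

theorem pC1T {x : P11} (hx : p11ok x = true) {i : ℕ} (hi : i < 24) :
    pImg (p11mul pT x) i = pImg pT (pImg x i) := by
  have h := (gAllLt_iff _ _).1 (pAll_spec pC1 hx) i hi
  rw [Bool.and_eq_true] at h
  exact Nat.eq_of_beq_eq_true h.2

theorem pImg_one {i : ℕ} (hi : i < 24) : pImg (1, 0, 0, 1) i = i := by
  have h := pC4
  rw [Bool.and_eq_true] at h
  exact Nat.eq_of_beq_eq_true ((gAllLt_iff _ _).1 h.1 i hi)

theorem pImg_neg {i : ℕ} (hi : i < 24) : pImg (10, 0, 0, 10) i = i := by
  have h := pC4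
  rw [Bool.and_eq_true] at h
  exact Nat.eq_of_beq_eq_true ((gAllLt_iff _ _).1 h.2 i hi)

theorem pWS_mem : gWordPerm q01wS ∈ fSub [q011X, q022X, q021X] 0 := by
  have h := pC5
  simp only [Bool.and_eq_true] at h
  exact fWordOK_mem h.1.1.1

theorem pWT_mem : gWordPerm q01wT ∈ fSub [q011X, q022X, q021X] 0 := by
  have h := pC5
  simp only [Bool.and_eq_true] at h
  exact fWordOK_mem h.1.1.2

theorem pWS_img {i : ℕ} (hi : i < 24) : gWordAt q01wS i = pImg pS i := by
  have h := pC5
  simp only [Bool.and_eq_true] at h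
  exact Nat.eq_of_beq_eq_true ((gAllLt_iff _ _).1 h.1.2 i hi)

theorem pWT_img {i : ℕ} (hi : i < 24) : gWordAt q01wT i = pImg pT i := by
  have h := pC5
  simp only [Bool.and_eq_true] at h
  exact Nat.eq_of_beq_eq_true ((gAllLt_iff _ _).1 h.2 i hi)

/-- one step: multiply by a generator -/
theorem pF_step {g : P11} {w : List ℕ} (hw : gWordPerm w ∈ fSub [q011X, q022X, q021X] 0)
    (hwi : ∀ i < 24, gWordAt w i = pImg g i)
    (hmul : ∀ x, p11ok x = true → ∀ i < 24, pImg (p11mul g x) i = pImg g (pImg x i))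
    {x' : P11} (hx' : p11ok x' = true) {h' : Equiv.Perm GolayPt}
    (hh' : h' ∈ fSub [q011X, q022X, q021X] 0)
    (himg' : ∀ i < 24, gIdx (h' (gPt i)) = pImg x' i) :
    ∃ h ∈ fSub [q011X, q022X, q021X] 0, ∀ i < 24, gIdx (h (gPt i)) = pImg (p11mul g x') i := by
  refine ⟨gWordPerm w * h', (fSub [q011X, q022X, q021X] 0).mul_mem hw hh', fun i hi => ?_⟩
  show gIdx (gWordPerm w (h' (gPt i))) = _
  have hlt : pImg x' i < 24 := by
    rw [← himg' i hi]
    exact gIdx_lt _
  rw [word_apply_idx, himg' i hi, hwi _ hlt, hmul x' hx' i hi]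

theorem pF_ex : ∀ (n : ℕ) (x : P11), p11ok x = true → pDepth x = n →
    ∃ h ∈ fSub [q011X, q022X, q021X] 0, ∀ i < 24, gIdx (h (gPt i)) = pImg x i := by
  intro n
  induction n using Nat.strong_induction_on with
  | _ n ih =>
    intro x hx hn
    have h2 := pAll_spec pC2 hx
    rcases Bool.or_eq_true _ _ ▸ h2 with h1 | h2'
    · have e := p11eq_iff h1
      refine ⟨1, (fSub [q011X, q022X, q021X] 0).one_mem, fun i hi => ?_⟩
      rw [e, pImg_one hi]
      exact gIdx_gPt hi
    · simp only [Bool.and_eq_true] at h2'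
      obtain ⟨⟨hok', hlt⟩, heq⟩ := h2'
      cases hg : pGen x with
      | false =>
        rw [hg] at hok' hlt heq
        have hok2 : p11ok (p11mul pSi x) = true := hok'
        have hlt2 : pDepth (p11mul pSi x) < pDepth x := Nat.blt_eq.mp hlt
        have heq2 : p11mul pS (p11mul pSi x) = x := p11eq_iff heq
        rw [hn] at hlt2
        obtain ⟨h', hh', himg'⟩ := ih _ hlt2 _ hok2 rfl
        obtain ⟨h, hh, himg⟩ := pF_step pWS_mem (fun i hi => pWS_img hi)
          (fun y hy i hi => pC1S hy hi) hok2 hh' himg'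
        refine ⟨h, hh, fun i hi => ?_⟩
        rw [himg i hi, heq2]
      | true =>
        rw [hg] at hok' hlt heq
        have hok2 : p11ok (p11mul pTi x) = true := hok'
        have hlt2 : pDepth (p11mul pTi x) < pDepth x := Nat.blt_eq.mp hlt
        have heq2 : p11mul pT (p11mul pTi x) = x := p11eq_iff heq
        rw [hn] at hlt2
        obtain ⟨h', hh', himg'⟩ := ih _ hlt2 _ hok2 rfl
        obtain ⟨h, hh, himg⟩ := pF_step pWT_mem (fun i hi => pWT_img hi)
          (fun y hy i hi => pC1T hy hi) hok2 hh' himg'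
        refine ⟨h, hh, fun i hi => ?_⟩
        rw [himg i hi, heq2]

theorem pImg_lt {x : P11} (hx : p11ok x = true) {i : ℕ} (hi : i < 24) : pImg x i < 24 := by
  obtain ⟨h, -, himg⟩ := pF_ex _ x hx rfl
  rw [← himg i hi]
  exact gIdx_lt _

/-! ### the generators as matrices -/

def mS : SL11 := ⟨!![0, 1; -1, 0], by simp [Matrix.det_fin_two]⟩

def mT : SL11 := ⟨!![1, 1; 0, 1], by simp [Matrix.det_fin_two]⟩

def mSi : SL11 := ⟨!![0, -1; 1, 0], by simp [Matrix.det_fin_two]⟩

def mTi : SL11 := ⟨!![1, -1; 0, 1], by simp [Matrix.det_fin_two]⟩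

theorem pQ_mS : pQ mS = pS := by decide

theorem pQ_mT : pQ mT = pT := by decide

theorem pQ_mSi : pQ mSi = pSi := by decide

theorem pQ_mTi : pQ mTi = pTi := by decide

theorem pQ_one : pQ 1 = (1, 0, 0, 1) := by decide

/-- the table is multiplicative -/
theorem pTab_mul : ∀ (n : ℕ) (M : SL11), pDepth (pQ M) = n → ∀ (N : SL11) (i : ℕ), i < 24 →
    pImg (pQ (M * N)) i = pImg (pQ M) (pImg (pQ N) i) := by
  intro n
  induction n using Nat.strong_induction_on with
  | _ n ih =>
    intro M hn N i hi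
    have hx := pQ_ok M
    have hj : pImg (pQ N) i < 24 := pImg_lt (pQ_ok N) hi
    have h2 := pAll_spec pC2 hx
    rcases Bool.or_eq_true _ _ ▸ h2 with h1 | h2'
    · have e := p11eq_iff h1
      have hM : M = 1 := pQ_inj (e.trans pQ_one.symm)
      rw [hM, one_mul, pQ_one, pImg_one hj]
    · simp only [Bool.and_eq_true] at h2'
      obtain ⟨⟨hok', hlt⟩, heq⟩ := h2'
      cases hg : pGen (pQ M) with
      | false =>
        rw [hg] at hok' hlt heq
        have hlt2 : pDepth (p11mul pSi (pQ M)) < pDepth (pQ M) := Nat.blt_eq.mp hlt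
        have heq2 : p11mul pS (p11mul pSi (pQ M)) = pQ M := p11eq_iff heq
        rw [hn] at hlt2
        have hM' : pQ (mSi * M) = p11mul pSi (pQ M) := by rw [pQ_mul, pQ_mSi]
        have hM : M = mS * (mSi * M) := pQ_inj (by rw [pQ_mul, pQ_mS, hM', heq2])
        have ih' := ih _ hlt2 (mSi * M) (congrArg pDepth hM') N i hi
        have e0 : M * N = mS * ((mSi * M) * N) := by rw [← mul_assoc, ← hM]
        have e1 : pQ (M * N) = p11mul pS (pQ ((mSi * M) * N)) := by
          rw [e0, pQ_mul, pQ_mS]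
        rw [e1, pC1S (pQ_ok _) hi, ih', ← pC1S (pQ_ok _) hj, hM', heq2]
      | true =>
        rw [hg] at hok' hlt heq
        have hlt2 : pDepth (p11mul pTi (pQ M)) < pDepth (pQ M) := Nat.blt_eq.mp hlt
        have heq2 : p11mul pT (p11mul pTi (pQ M)) = pQ M := p11eq_iff heq
        rw [hn] at hlt2
        have hM' : pQ (mTi * M) = p11mul pTi (pQ M) := by rw [pQ_mul, pQ_mTi]
        have hM : M = mT * (mTi * M) := pQ_inj (by rw [pQ_mul, pQ_mT, hM', heq2])
        have ih' := ih _ hlt2 (mTi * M) (congrArg pDepth hM') N i hi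
        have e0 : M * N = mT * ((mTi * M) * N) := by rw [← mul_assoc, ← hM]
        have e1 : pQ (M * N) = p11mul pT (pQ ((mTi * M) * N)) := by
          rw [e0, pQ_mul, pQ_mT]
        rw [e1, pC1T (pQ_ok _) hi, ih', ← pC1T (pQ_ok _) hj, hM', heq2]

/-! ### the homomorphism -/

theorem pF_ex' (M : SL11) : ∃ h ∈ fSub [q011X, q022X, q021X] 0,
    ∀ i < 24, gIdx (h (gPt i)) = pImg (pQ M) i := pF_ex _ _ (pQ_ok M) rfl

noncomputable def pF (M : SL11) : Equiv.Perm GolayPt := Classical.choose (pF_ex' M)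

theorem pF_mem (M : SL11) : pF M ∈ fSub [q011X, q022X, q021X] 0 :=
  (Classical.choose_spec (pF_ex' M)).1

theorem pF_img (M : SL11) {i : ℕ} (hi : i < 24) : gIdx (pF M (gPt i)) = pImg (pQ M) i :=
  (Classical.choose_spec (pF_ex' M)).2 i hi

theorem perm_ext_idx {h h' : Equiv.Perm GolayPt}
    (e : ∀ i < 24, gIdx (h (gPt i)) = gIdx (h' (gPt i))) : h = h' := by
  apply Equiv.ext
  intro p
  have h1 := e (gIdx p) (gIdx_lt p)
  rw [gPt_gIdx] at h1
  exact gIdx_inj h1

theorem pF_mul (M N : SL11) : pF (M * N) = pF M * pF N := by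
  apply perm_ext_idx
  intro i hi
  show gIdx (pF (M * N) (gPt i)) = gIdx (pF M (pF N (gPt i)))
  have e : pF N (gPt i) = gPt (pImg (pQ N) i) := by rw [← pF_img N hi, gPt_gIdx]
  rw [pF_img _ hi, e, pF_img M (pImg_lt (pQ_ok N) hi)]
  exact pTab_mul _ M rfl N i hi

theorem pF_one : pF 1 = 1 := by
  apply perm_ext_idx
  intro i hi
  rw [pF_img 1 hi, pQ_one, pImg_one hi]
  exact (gIdx_gPt hi).symm

theorem pF_eq_one_iff (M : SL11) :
    pF M = 1 ↔ pQ M = (1, 0, 0, 1) ∨ pQ M = (10, 0, 0, 10) := by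
  constructor
  · intro h
    have h1 : gAllLt 24 (fun i => Nat.beq (pImg (pQ M) i) i) = true := by
      apply (gAllLt_iff _ _).2
      intro i hi
      apply nbeq
      rw [← pF_img M hi, h]
      exact gIdx_gPt hi
    have h3 := pAll_spec pC3 (pQ_ok M)
    rw [h1] at h3
    simp only [Bool.not_true, Bool.false_or, Bool.or_eq_true] at h3
    rcases h3 with h3 | h3
    · exact Or.inl (p11eq_iff h3)
    · exact Or.inr (p11eq_iff h3)
  · rintro (h | h)
    · apply perm_ext_idx
      intro i hi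
      rw [pF_img M hi, h, pImg_one hi]
      exact (gIdx_gPt hi).symm
    · apply perm_ext_idx
      intro i hi
      rw [pF_img M hi, h, pImg_neg hi]
      exact (gIdx_gPt hi).symm

noncomputable def pHom : SL11 →* ↥(fSub [q011X, q022X, q021X] 0) where
  toFun := fun M => ⟨pF M, pF_mem M⟩
  map_one' := Subtype.ext pF_one
  map_mul' := fun M N => Subtype.ext (pF_mul M N)

theorem p_sq_one : ∀ r : ZMod 11, r ^ 2 = 1 → r = 1 ∨ r = 10 := by decide

theorem p_center_iff (M : SL11) :
    M ∈ Subgroup.center SL11 ↔ pQ M = (1, 0, 0, 1) ∨ pQ M = (10, 0, 0, 10) := by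
  rw [Matrix.SpecialLinearGroup.mem_center_iff]
  constructor
  · rintro ⟨r, hr, hM⟩
    have h00 : M.1 0 0 = r := by rw [← hM]; simp
    have h01 : M.1 0 1 = 0 := by rw [← hM]; simp
    have h10 : M.1 1 0 = 0 := by rw [← hM]; simp
    have h11 : M.1 1 1 = r := by rw [← hM]; simp
    have hr2 : r ^ 2 = 1 := by
      rw [Fintype.card_fin] at hr
      exact hr
    unfold pQ
    rw [h00, h01, h10, h11]
    rcases p_sq_one r hr2 with rfl | rfl
    · exact Or.inl (by decide)
    · exact Or.inr (by decide)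
  · rintro (h | h)
    · refine ⟨1, one_pow _, ?_⟩
      rw [← pQ_mat M, h]
      ext i j
      fin_cases i <;> fin_cases j <;> simp [p11mat]
    · refine ⟨10, by decide, ?_⟩
      rw [← pQ_mat M, h]
      ext i j
      fin_cases i <;> fin_cases j <;> simp [p11mat]

theorem pHom_ker : Subgroup.center SL11 = pHom.ker := by
  ext M
  rw [p_center_iff, MonoidHom.mem_ker, ← pF_eq_one_iff]
  constructor
  · intro h
    exact Subtype.ext h
  · intro h
    exact congrArg Subtype.val h

theorem p_card_SL11 : Nat.card SL11 = 1320 := by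
  have h := Cfsg.Agent.Helper2.card_SL2 (ZMod 11)
  rw [ZMod.card] at h
  have h2 : Nat.card SL11 * 10 = 1320 * 10 := h
  exact Nat.eq_of_mul_eq_mul_right (by norm_num) h2

theorem pHom_surj : Function.Surjective pHom := by
  have hkc : Nat.card ↥pHom.ker ≤ 2 := by
    have hinj : Function.Injective (fun M : ↥pHom.ker =>
        decide (pQ (M : SL11) = (1, 0, 0, 1))) := by
      intro M N hMN0
      have hMN : decide (pQ (M : SL11) = (1, 0, 0, 1)) = decide (pQ (N : SL11) = (1, 0, 0, 1)) :=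
        hMN0
      have hM := (pF_eq_one_iff (M : SL11)).1 (congrArg Subtype.val (MonoidHom.mem_ker.1 M.2))
      have hN := (pF_eq_one_iff (N : SL11)).1 (congrArg Subtype.val (MonoidHom.mem_ker.1 N.2))
      apply Subtype.ext
      apply pQ_inj
      rcases hM with hM | hM <;> rcases hN with hN | hN
      · rw [hM, hN]
      · rw [hM, hN] at hMN
        exact absurd hMN (by decide)
      · rw [hM, hN] at hMN
        exact absurd hMN (by decide)
      · rw [hM, hN]
    have h := Nat.card_le_card_of_injective _ hinj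
    have hb : Nat.card Bool = 2 := by rw [Nat.card_eq_fintype_card, Fintype.card_bool]
    rw [hb] at h
    exact h
  have h1 := Subgroup.card_mul_index pHom.ker
  rw [Subgroup.index_ker, p_card_SL11] at h1
  have hr_le : Nat.card ↥pHom.range ≤ 660 := by
    rw [← q011_ok.2]
    exact Subgroup.card_le_card_group _
  have hr : Nat.card ↥pHom.range = 660 := by
    have h2 := Nat.mul_le_mul_right (Nat.card ↥pHom.range) hkc
    omega
  rw [← MonoidHom.range_eq_top]
  exact Subgroup.eq_top_of_card_eq _ (by rw [hr]; exact q011_ok.2.symm)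

theorem psl11_iso : Nonempty (↥(fSub [q011X, q022X, q021X] 0) ≃*
    Matrix.ProjectiveSpecialLinearGroup (Fin 2) (ZMod 11)) :=
  ⟨((QuotientGroup.quotientMulEquivOfEq pHom_ker).trans
    (QuotientGroup.quotientKerEquivOfSurjective pHom pHom_surj)).symm⟩

end Cfsg.Agent.Helper3
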