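import Cfsg.Agent.Helper3.Fam.PslTab2

/-!
The stabilizer of a dodecad, one of its points and a point outside it is isomorphic to
PSL(2, 11).
-/

set_option autoImplicit false

namespace Cfsg.Agent.Helper3

open Cfsg
open scoped Pointwise

theorem m11_flag_frame (d : Finset GolayPt) (hd : d ∈ dodecads) (p : GolayPt) (hp : p ∈ d) :
    ∃ c ∈ M24, c • gD0 = d ∧ c (gPt 0) = p := by
  obtain ⟨c0, hc0, rfl⟩ := M24_dodecad_trans0 d hd
  obtain ⟨p0, hp0, rfl⟩ := Finset.mem_smul_finset.1 hp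
  obtain ⟨k0, hk0, ek0⟩ := q_trans0 hp0
  have hk0D : k0 • gD0 = gD0 := ((mem_H99 hk0.1).1 hk0).1
  refine ⟨c0 * k0, M24.mul_mem hc0 hk0.1, by rw [mul_smul, hk0D], ?_⟩
  show c0 (k0 (gPt 0)) = c0 • p0
  have h : k0 (gPt 0) = p0 := ek0
  rw [h]
  rfl

theorem q01T_ok : gAllLt 24 (fun i => Nat.testBit 340831 i ||
    q01T.any (fun w => fWordOK [q022X, q021X] 0 w && Nat.beq (gWordAt w 5) i)) = true := by
  decide +kernel

theorem m11_trans_out {a : GolayPt} (ha : a ∉ gD0) :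
    ∃ k ∈ fSub [q022X, q021X] 0, k (gPt 5) = a := by
  have ha' : Nat.testBit 340831 (gIdx a) = false := by
    cases hb : Nat.testBit 340831 (gIdx a) with
    | false => rfl
    | true => exact absurd ((mem_gSupp _ _).2 hb) ha
  have h := (gAllLt_iff _ _).1 q01T_ok (gIdx a) (gIdx_lt a)
  rw [ha'] at h
  simp only [Bool.false_or] at h
  obtain ⟨w, hw, hw2⟩ := List.any_eq_true.1 h
  rw [Bool.and_eq_true] at hw2
  refine ⟨gWordPerm w, fWordOK_mem hw2.1, ?_⟩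
  have e : gWordAt w 5 = gIdx a := Nat.eq_of_beq_eq_true hw2.2
  have e2 : gIdx (gWordPerm w (gPt 5)) = gIdx a := by
    rw [word_apply_idx, gIdx_gPt (by decide)]
    exact e
  exact gIdx_inj e2

theorem gSupp_m32 : gSupp 32 = {gPt 5} := gSupp_bit (j := 5) (by norm_num)

theorem mem_H660 {k : Equiv.Perm GolayPt} (hk : k ∈ M24) :
    k ∈ fSub [q011X, q022X, q021X] 0 ↔
      k • gD0 = gD0 ∧ k (gPt 0) = gPt 0 ∧ k (gPt 5) = gPt 5 := by
  constructor
  · intro h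
    have h11 : k ∈ fSub [q022X, q021X] 0 :=
      ⟨h.1, fun A hA => h.2.1 A (List.mem_cons_of_mem _ hA), ptFix_zero k⟩
    obtain ⟨hD, h0⟩ := (mem_M11 hk).1 h11
    refine ⟨hD, h0, ?_⟩
    have h1 : k • gSupp 32 = gSupp 32 := (fam_set_fix k 32).1 (h.2.1 q011X (by simp))
    rw [gSupp_m32, Finset.smul_finset_singleton, Finset.singleton_inj] at h1
    exact h1
  · rintro ⟨hD, h0, h5⟩
    have h11 := (mem_M11 hk).2 ⟨hD, h0⟩
    refine ⟨hk, ?_, ptFix_zero k⟩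
    intro A hA
    rcases List.mem_cons.1 hA with rfl | hA
    · apply (fam_set_fix k 32).2
      rw [gSupp_m32, Finset.smul_finset_singleton]
      exact congrArg _ h5
    · exact h11.2.1 A hA

theorem m11_triple_frame (d : Finset GolayPt) (hd : d ∈ dodecads) (p q : GolayPt)
    (hp : p ∈ d) (hq : q ∉ d) :
    ∃ c ∈ M24, c • gD0 = d ∧ c (gPt 0) = p ∧ c (gPt 5) = q := by
  obtain ⟨c1, hc1, rfl, rfl⟩ := m11_flag_frame d hd p hp
  have hq' : c1⁻¹ q ∉ gD0 := by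
    intro h
    apply hq
    have h2 : c1 • (c1⁻¹ q) ∈ c1 • gD0 := Finset.smul_mem_smul_finset h
    have h3 : c1 • (c1⁻¹ q) = q := perm_apply_inv c1 q
    rw [h3] at h2
    exact h2
  obtain ⟨k, hk, ek⟩ := m11_trans_out hq'
  obtain ⟨hkD, hk0⟩ := (mem_M11 hk.1).1 hk
  refine ⟨c1 * k, M24.mul_mem hc1 hk.1, by rw [mul_smul, hkD], ?_, ?_⟩
  · show c1 (k (gPt 0)) = c1 (gPt 0)
    rw [hk0]
  · show c1 (k (gPt 5)) = q
    rw [ek]
    exact perm_apply_inv c1 q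

theorem m11_pt_stab_iso (d : Finset GolayPt) (hd : d ∈ dodecads) (p q : GolayPt)
    (hp : p ∈ d) (hq : q ∉ d) :
    Nonempty (↥(MulAction.stabilizer ↥M24 d ⊓ MulAction.stabilizer ↥M24 p ⊓
      MulAction.stabilizer ↥M24 q) ≃* Matrix.ProjectiveSpecialLinearGroup (Fin 2) (ZMod 11)) := by
  obtain ⟨c, hc, rfl, rfl, rfl⟩ := m11_triple_frame d hd p q hp hq
  have hKH : ∀ g : ↥M24, g ∈ (MulAction.stabilizer ↥M24 (c • gD0) ⊓
      MulAction.stabilizer ↥M24 (c (gPt 0)) ⊓ MulAction.stabilizer ↥M24 (c (gPt 5))) ↔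
      c⁻¹ * (g : Equiv.Perm GolayPt) * c ∈ fSub [q011X, q022X, q021X] 0 := by
    intro g
    rw [mem_H660 (M24.mul_mem (M24.mul_mem (M24.inv_mem hc) g.2) hc), Subgroup.mem_inf,
      Subgroup.mem_inf, MulAction.mem_stabilizer_iff, MulAction.mem_stabilizer_iff,
      MulAction.mem_stabilizer_iff]
    have e1 := stab_bridge_core c (g : Equiv.Perm GolayPt) gD0
    have e2 : ∀ a : GolayPt, (g : Equiv.Perm GolayPt) (c a) = c a ↔
        (c⁻¹ * (g : Equiv.Perm GolayPt) * c) a = a := by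
      intro a
      show _ ↔ c⁻¹ ((g : Equiv.Perm GolayPt) (c a)) = a
      constructor
      · intro h
        rw [h]
        exact perm_inv_apply c a
      · intro h
        have h2 := congrArg c h
        rw [perm_apply_inv] at h2
        exact h2
    constructor
    · rintro ⟨⟨h1, h2⟩, h3⟩
      exact ⟨e1.1 h1, (e2 _).1 h2, (e2 _).1 h3⟩
    · rintro ⟨h1, h2, h3⟩
      exact ⟨⟨e1.2 h1, (e2 _).2 h2⟩, (e2 _).2 h3⟩
  obtain ⟨e1⟩ := conj_mulEquiv _ (fSub [q011X, q022X, q021X] 0) (fSub_le _ 0) c hc hKH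
  obtain ⟨e2⟩ := psl11_iso
  exact ⟨e1.trans e2⟩

end Cfsg.Agent.Helper3
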