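import Cfsg.Agent.Helper3.Fam.Cent2Ac

set_option autoImplicit false

namespace Cfsg.Agent.Helper3

open Cfsg

/-! ### `GL(3, 2)` has no non-trivial normal 2-subgroup -/

/-- entrywise equality test -/
def g3eq (A B : Matrix (Fin 3) (Fin 3) (ZMod 2)) : Bool :=
  decide (A 0 0 = B 0 0) && decide (A 0 1 = B 0 1) && decide (A 0 2 = B 0 2) &&
  decide (A 1 0 = B 1 0) && decide (A 1 1 = B 1 1) && decide (A 1 2 = B 1 2) &&
  decide (A 2 0 = B 2 0) && decide (A 2 1 = B 2 1) && decide (A 2 2 = B 2 2)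

theorem g3eq_sound {A B : Matrix (Fin 3) (Fin 3) (ZMod 2)} (h : g3eq A B = true) : A = B := by
  unfold g3eq at h
  simp only [Bool.and_eq_true, decide_eq_true_eq] at h
  obtain ⟨⟨⟨⟨⟨⟨⟨⟨h00, h01⟩, h02⟩, h10⟩, h11⟩, h12⟩, h20⟩, h21⟩, h22⟩ := h
  ext i j
  fin_cases i <;> fin_cases j <;> assumption

theorem g3eq_complete {A B : Matrix (Fin 3) (Fin 3) (ZMod 2)} (h : A = B) : g3eq A B = true := by
  subst h
  unfold g3eq
  simp

/-- conjugating matrices and their inverses -/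
def g3C : List (Matrix (Fin 3) (Fin 3) (ZMod 2) × Matrix (Fin 3) (Fin 3) (ZMod 2)) :=
  [(!![0, 0, 1; 0, 1, 0; 1, 0, 1], !![1, 0, 1; 0, 1, 0; 1, 0, 0]),
   (!![0, 1, 1; 1, 1, 1; 1, 1, 0], !![1, 1, 0; 1, 1, 1; 0, 1, 1]),
   (!![0, 0, 1; 1, 0, 0; 0, 1, 0], !![0, 1, 0; 0, 0, 1; 1, 0, 0])]

def g3ok (Y : Matrix (Fin 3) (Fin 3) (ZMod 2))
    (p : Matrix (Fin 3) (Fin 3) (ZMod 2) × Matrix (Fin 3) (Fin 3) (ZMod 2)) : Bool :=
  g3eq (p.1 * p.2) 1 && g3eq (p.2 * p.1) 1 && !(g3eq (Y * p.1 * Y * p.2) 1) &&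
    g3eq ((Y * p.1 * Y * p.2) * (Y * p.1 * Y * p.2) * (Y * p.1 * Y * p.2)) 1

def g3chk (a b c d e f g h i : ZMod 2) : Bool :=
  !(g3eq (!![a, b, c; d, e, f; g, h, i] * !![a, b, c; d, e, f; g, h, i]) 1) ||
    g3eq !![a, b, c; d, e, f; g, h, i] 1 || g3C.any (g3ok !![a, b, c; d, e, f; g, h, i])

/-- the two scalars -/
def g3L : List (ZMod 2) := [0, 1]

theorem g3L_mem (x : ZMod 2) : x ∈ g3L := by
  revert x; decide

set_option maxRecDepth 100000 in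
theorem g3_all : g3L.all (fun a => g3L.all fun b => g3L.all fun c => g3L.all fun d =>
    g3L.all fun e => g3L.all fun f => g3L.all fun g => g3L.all fun h => g3L.all fun i =>
      g3chk a b c d e f g h i) = true := by
  decide +kernel

theorem g3_spec (Y : Matrix (Fin 3) (Fin 3) (ZMod 2)) (hYY : Y * Y = 1) (hY1 : Y ≠ 1) :
    ∃ g gi : Matrix (Fin 3) (Fin 3) (ZMod 2), g * gi = 1 ∧ gi * g = 1 ∧ Y * g * Y * gi ≠ 1 ∧
      (Y * g * Y * gi) * (Y * g * Y * gi) * (Y * g * Y * gi) = 1 := by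
  have hall := g3_all
  simp only [List.all_eq_true] at hall
  have h1 := hall (Y 0 0) (g3L_mem _) (Y 0 1) (g3L_mem _) (Y 0 2) (g3L_mem _) (Y 1 0) (g3L_mem _)
    (Y 1 1) (g3L_mem _) (Y 1 2) (g3L_mem _) (Y 2 0) (g3L_mem _) (Y 2 1) (g3L_mem _)
    (Y 2 2) (g3L_mem _)
  unfold g3chk at h1
  rw [← Matrix.eta_fin_three Y, hYY, g3eq_complete rfl] at h1
  simp only [Bool.not_true, Bool.false_or, Bool.or_eq_true] at h1
  rcases h1 with h1 | h1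
  · exact absurd (g3eq_sound h1) hY1
  · rw [List.any_eq_true] at h1
    obtain ⟨p, -, hp⟩ := h1
    unfold g3ok at hp
    simp only [Bool.and_eq_true, Bool.not_eq_true'] at hp
    obtain ⟨⟨⟨a1, a2⟩, a3⟩, a4⟩ := hp
    refine ⟨p.1, p.2, g3eq_sound a1, g3eq_sound a2, ?_, g3eq_sound a4⟩
    intro h
    rw [g3eq_complete h] at a3
    exact absurd a3 (by decide)

theorem gl32_o2 (N : Subgroup (GL (Fin 3) (ZMod 2))) (hN : N.Normal) (hp : IsPGroup 2 ↥N) :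
    N = ⊥ := by
  by_contra hne
  haveI : Fact (Nat.Prime 2) := ⟨Nat.prime_two⟩
  haveI : Fact (Nat.Prime 3) := ⟨Nat.prime_three⟩
  haveI : Nontrivial ↥N := (Subgroup.nontrivial_iff_ne_bot N).2 hne
  obtain ⟨n, hn⟩ := IsPGroup.iff_card.1 hp
  have hn0 : n ≠ 0 := by
    rintro rfl
    rw [pow_zero] at hn
    have := Finite.one_lt_card (α := ↥N)
    omega
  obtain ⟨y, hy⟩ := exists_prime_orderOf_dvd_card' 2 (show 2 ∣ Nat.card ↥N by
    rw [hn]; exact dvd_pow_self 2 hn0)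
  have hy2 : y * y = 1 := by
    have h := pow_orderOf_eq_one y
    rw [hy, pow_two] at h
    exact h
  have hy1 : y ≠ 1 := by
    intro h
    rw [h, orderOf_one] at hy
    exact absurd hy (by decide)
  have hYY : (y.1 : Matrix (Fin 3) (Fin 3) (ZMod 2)) * (y.1 : Matrix (Fin 3) (Fin 3) (ZMod 2)) = 1 :=
    congrArg (fun t : ↥N => ((t.1 : GL (Fin 3) (ZMod 2)) : Matrix (Fin 3) (Fin 3) (ZMod 2))) hy2
  have hY1 : (y.1 : Matrix (Fin 3) (Fin 3) (ZMod 2)) ≠ 1 := fun h => hy1 (Subtype.ext (Units.ext h))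
  obtain ⟨g, gi, hg1, hg2, hW1, hW3⟩ := g3_spec _ hYY hY1
  obtain ⟨G, hG, hGi⟩ : ∃ G : GL (Fin 3) (ZMod 2),
      (G : Matrix (Fin 3) (Fin 3) (ZMod 2)) = g ∧
        ((G⁻¹ : GL (Fin 3) (ZMod 2)) : Matrix (Fin 3) (Fin 3) (ZMod 2)) = gi :=
    ⟨⟨g, gi, hg1, hg2⟩, rfl, rfl⟩
  have hw : y.1 * (G * y.1 * G⁻¹) ∈ N := N.mul_mem y.2 (hN.conj_mem _ y.2 G)
  have hval : ((y.1 * (G * y.1 * G⁻¹) : GL (Fin 3) (ZMod 2)) : Matrix (Fin 3) (Fin 3) (ZMod 2)) =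
      (y.1 : Matrix (Fin 3) (Fin 3) (ZMod 2)) * g * (y.1 : Matrix (Fin 3) (Fin 3) (ZMod 2)) * gi := by
    rw [Units.val_mul, Units.val_mul, Units.val_mul, hG, hGi]
    simp only [mul_assoc]
  have ho : orderOf (⟨_, hw⟩ : ↥N) = 3 := by
    apply orderOf_eq_prime
    · apply Subtype.ext
      apply Units.ext
      show ((y.1 * (G * y.1 * G⁻¹)) ^ 3 : GL (Fin 3) (ZMod 2)).1 = 1
      rw [Units.val_pow_eq_pow_val, hval, pow_succ, pow_two]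
      exact hW3
    · intro h
      apply hW1
      rw [← hval]
      exact congrArg (fun t : ↥N => ((t.1 : GL (Fin 3) (ZMod 2)) : Matrix (Fin 3) (Fin 3) (ZMod 2))) h
  obtain ⟨k, hk⟩ := hp ⟨_, hw⟩
  have hd : 3 ∣ 2 ^ k := by
    rw [← ho]
    exact orderOf_dvd_of_pow_eq_one hk
  have := (Nat.Prime.dvd_of_dvd_pow Nat.prime_three hd)
  omega

end Cfsg.Agent.Helper3
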