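import Cfsg.Agent.Helper3.Fam.Trv5

set_option autoImplicit false

namespace Cfsg.Agent.Helper3

open Cfsg

/-! ### The centralizer of a transvection in `SL(5, 2)` -/

/-- the fixed transvection -/
def s5 : S52 := ⟨Matrix.transvection 0 1 1, Matrix.det_transvection_of_ne 0 1 (by decide) 1⟩

theorem s5_val : (s5 : Matrix (Fin 5) (Fin 5) (ZMod 2)) = Matrix.transvection 0 1 1 := rfl

/-- the centralizer of the transvection -/
abbrev A5 : Subgroup S52 := Subgroup.centralizer ({s5} : Set S52)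

theorem mem_A5 (x : S52) (hcol : ∀ a, x.1 a 0 = if a = 0 then 1 else 0)
    (hrow : ∀ b, x.1 1 b = if b = 1 then 1 else 0) : x ∈ A5 := by
  rw [Subgroup.mem_centralizer_iff]
  intro h hh
  rw [Set.mem_singleton_iff] at hh
  rw [hh]
  apply Subtype.ext
  rw [Matrix.SpecialLinearGroup.coe_mul, Matrix.SpecialLinearGroup.coe_mul, s5_val]
  exact (t5_of_struct _ hcol hrow).symm

theorem A5_col (x : ↥A5) (a : Fin 5) : x.1.1 a 0 = if a = 0 then 1 else 0 :=
  (t5_cent_struct s5 s5_val x.1 x.2).1 a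

theorem A5_row (x : ↥A5) (b : Fin 5) : x.1.1 1 b = if b = 1 then 1 else 0 :=
  (t5_cent_struct s5 s5_val x.1 x.2).2 b

/-- the projection onto the lower right block -/
noncomputable def t5rho : ↥A5 →* GL (Fin 3) (ZMod 2) where
  toFun x := t5GL s5 s5_val x
  map_one' := Units.ext t5B_one
  map_mul' x y := Units.ext (t5B_mul _ _ (A5_col x) (A5_row y))

theorem t5rho_val (x : ↥A5) :
    ((t5rho x : GL (Fin 3) (ZMod 2)) : Matrix (Fin 3) (Fin 3) (ZMod 2)) = t5B x.1.1 := rfl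

/-- the kernel of the projection -/
noncomputable abbrev QA5 : Subgroup ↥A5 := t5rho.ker

theorem mem_QA5 (x : ↥A5) : x ∈ QA5 ↔ t5B x.1.1 = 1 := by
  rw [MonoidHom.mem_ker, Units.ext_iff, t5rho_val]
  rfl

/-- the block diagonal embedding -/
def t5D (B : Matrix (Fin 3) (Fin 3) (ZMod 2)) : Matrix (Fin 5) (Fin 5) (ZMod 2) :=
  !![1, 0, 0, 0, 0; 0, 1, 0, 0, 0; 0, 0, B 0 0, B 0 1, B 0 2; 0, 0, B 1 0, B 1 1, B 1 2;
     0, 0, B 2 0, B 2 1, B 2 2]

theorem t5D_mul (B C : Matrix (Fin 3) (Fin 3) (ZMod 2)) : t5D (B * C) = t5D B * t5D C := by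
  ext i j
  fin_cases i <;> fin_cases j <;>
    simp [t5D, Matrix.mul_apply, Fin.sum_univ_five, Fin.sum_univ_three]

theorem t5D_one : t5D 1 = 1 := by
  ext i j
  fin_cases i <;> fin_cases j <;> simp [t5D]

theorem t5B_D (B : Matrix (Fin 3) (Fin 3) (ZMod 2)) : t5B (t5D B) = B := by
  ext i j
  fin_cases i <;> fin_cases j <;> rfl

theorem t5D_col (B : Matrix (Fin 3) (Fin 3) (ZMod 2)) (a : Fin 5) :
    t5D B a 0 = if a = 0 then 1 else 0 := by
  fin_cases a <;> rfl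

theorem t5D_row (B : Matrix (Fin 3) (Fin 3) (ZMod 2)) (b : Fin 5) :
    t5D B 1 b = if b = 1 then 1 else 0 := by
  fin_cases b <;> rfl

theorem z2_unit (a b : ZMod 2) (h : a * b = 1) : a = 1 := by
  revert a b; decide

theorem z2_cases (a : ZMod 2) : a = 0 ∨ a = 1 := by
  revert a; decide

theorem z2_add_eq_zero (a b : ZMod 2) (h : a + b = 0) : a = b := by
  revert a b; decide

theorem z2_add_eq_one (a b : ZMod 2) (h : a + b = 1) : a = 1 + b := by
  revert a b; decide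

theorem z2_double (a : ZMod 2) : a + a = 0 := by
  revert a; decide

theorem t5D_det (B : Matrix.SpecialLinearGroup (Fin 3) (ZMod 2)) : (t5D B.1).det = 1 := by
  have h : t5D B.1 * t5D (B⁻¹).1 = 1 := by
    rw [← t5D_mul, ← Matrix.SpecialLinearGroup.coe_mul, mul_inv_cancel,
      Matrix.SpecialLinearGroup.coe_one, t5D_one]
  have h2 := congrArg Matrix.det h
  rw [Matrix.det_mul, Matrix.det_one] at h2
  exact z2_unit _ _ h2

/-- the complement -/
noncomputable def t5sig : Matrix.SpecialLinearGroup (Fin 3) (ZMod 2) →* ↥A5 where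
  toFun B := ⟨⟨t5D B.1, t5D_det B⟩, mem_A5 _ (t5D_col B.1) (t5D_row B.1)⟩
  map_one' := Subtype.ext (Subtype.ext t5D_one)
  map_mul' B C := Subtype.ext (Subtype.ext (t5D_mul B.1 C.1))

theorem t5sig_val (B : Matrix.SpecialLinearGroup (Fin 3) (ZMod 2)) :
    (t5sig B).1.1 = t5D B.1 := rfl

theorem t5sig_inj : Function.Injective t5sig := by
  intro B C h
  have h1 : t5D B.1 = t5D C.1 := congrArg (fun t : ↥A5 => t.1.1) h
  have h2 := congrArg t5B h1
  rw [t5B_D, t5B_D] at h2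
  exact Subtype.ext h2

/-- the complement as a subgroup -/
noncomputable abbrev KA5 : Subgroup ↥A5 := t5sig.range

theorem KA5_iso : Nonempty (↥KA5 ≃* Matrix.SpecialLinearGroup (Fin 3) (ZMod 2)) :=
  ⟨(MonoidHom.ofInjective t5sig_inj).symm⟩

theorem QK_inf : QA5 ⊓ KA5 = ⊥ := by
  rw [eq_bot_iff]
  intro x hx
  obtain ⟨hq, B, rfl⟩ := hx
  have hq := (mem_QA5 _).1 hq
  rw [t5sig_val, t5B_D] at hq
  have hB : B = 1 := Subtype.ext hq
  rw [hB, map_one]
  exact Subgroup.mem_bot.2 rfl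

theorem t5B_det (x : ↥A5) : (t5B x.1.1).det = 1 := by
  have h : t5B x.1.1 * t5B (x⁻¹).1.1 = 1 := by
    rw [← t5B_mul _ _ (A5_col x) (A5_row x⁻¹), (t5_inv_mul s5 x).1, t5B_one]
  have h2 := congrArg Matrix.det h
  rw [Matrix.det_mul, Matrix.det_one] at h2
  exact z2_unit _ _ h2

theorem t5rho_sig (B : Matrix.SpecialLinearGroup (Fin 3) (ZMod 2)) :
    ((t5rho (t5sig B) : GL (Fin 3) (ZMod 2)) : Matrix (Fin 3) (Fin 3) (ZMod 2)) = B.1 := by
  rw [t5rho_val, t5sig_val, t5B_D]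

theorem QK_sup : QA5 ⊔ KA5 = ⊤ := by
  rw [eq_top_iff]
  intro x _
  obtain ⟨b, hb⟩ : ∃ b : Matrix.SpecialLinearGroup (Fin 3) (ZMod 2), b.1 = t5B x.1.1 :=
    ⟨⟨t5B x.1.1, t5B_det x⟩, rfl⟩
  have e : x = (x * (t5sig b)⁻¹) * t5sig b := by group
  rw [e]
  apply Subgroup.mul_mem_sup
  · rw [MonoidHom.mem_ker, map_mul, map_inv, mul_inv_eq_one]
    apply Units.ext
    rw [t5rho_sig, hb, t5rho_val]
  · exact ⟨b, rfl⟩

theorem t5rho_surj : Function.Surjective t5rho := by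
  intro B
  have hd : (B : Matrix (Fin 3) (Fin 3) (ZMod 2)).det = 1 := by
    have h : (B : Matrix (Fin 3) (Fin 3) (ZMod 2)) *
        ((B⁻¹ : GL (Fin 3) (ZMod 2)) : Matrix (Fin 3) (Fin 3) (ZMod 2)) = 1 := by
      rw [← Units.val_mul, mul_inv_cancel, Units.val_one]
    have h2 := congrArg Matrix.det h
    rw [Matrix.det_mul, Matrix.det_one] at h2
    exact z2_unit _ _ h2
  obtain ⟨b, hb⟩ : ∃ b : Matrix.SpecialLinearGroup (Fin 3) (ZMod 2),
      b.1 = (B : Matrix (Fin 3) (Fin 3) (ZMod 2)) := ⟨⟨_, hd⟩, rfl⟩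
  refine ⟨t5sig b, ?_⟩
  apply Units.ext
  rw [t5rho_sig, hb]

theorem QA5_max (N : Subgroup ↥A5) (hN : N.Normal) (hp : IsPGroup 2 ↥N) : N ≤ QA5 := by
  have h1 : N.map t5rho = ⊥ := gl32_o2 _ (hN.map t5rho t5rho_surj) (hp.map t5rho)
  exact (Subgroup.map_eq_bot_iff N).1 h1

theorem zTheta_bij : Function.Bijective (zTheta s5 s5_val) := by
  have hinj : Function.Injective (zTheta s5 s5_val) := by
    rw [injective_iff_map_eq_one]
    intro g hg
    have h1 : zMat g.1 = 1 :=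
      congrArg (fun y : ↥A5 => (y.1.1 : Matrix (Fin 5) (Fin 5) (ZMod 2))) hg
    exact Subtype.ext (zMat_ker (mem_zC.1 g.2).1 h1)
  have hcard : Nat.card ↥A5 ≤ Nat.card ↥(fSub (zc1X :: [q10AX]) 0) := by
    rw [zc1_ok.2, ← t5_card_target]
    exact Nat.card_le_card_of_injective _ (t5phi_inj s5 s5_val)
  exact hinj.bijective_of_nat_card_le hcard

theorem A5_card : Nat.card ↥A5 = 21504 := by
  rw [← Nat.card_congr (Equiv.ofBijective _ zTheta_bij)]
  exact zc1_ok.2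

theorem gl32_card : Nat.card (GL (Fin 3) (ZMod 2)) = 168 := by
  rw [Matrix.card_GL_field, Fin.prod_univ_three]
  simp [ZMod.card]

theorem QA5_card : Nat.card ↥QA5 = 128 := by
  have h1 := Subgroup.card_mul_index QA5
  rw [Subgroup.index_ker, MonoidHom.range_eq_top.2 t5rho_surj, Subgroup.card_top, gl32_card,
    A5_card] at h1
  omega

theorem QA5_pgroup : IsPGroup 2 ↥QA5 := by
  haveI : Fact (Nat.Prime 2) := ⟨Nat.prime_two⟩
  exact IsPGroup.of_card (n := 7) QA5_card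

end Cfsg.Agent.Helper3
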