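import Cfsg.Agent.Helper3.Fam.Trv5b

set_option autoImplicit false

namespace Cfsg.Agent.Helper3

open Cfsg

/-! ### The kernel `QA5` elementwise -/

/-- the matrices in the kernel -/
def q5Mat (c u2 u3 u4 v2 v3 v4 : ZMod 2) : Matrix (Fin 5) (Fin 5) (ZMod 2) :=
  !![1, c, u2, u3, u4; 0, 1, 0, 0, 0; 0, v2, 1, 0, 0; 0, v3, 0, 1, 0; 0, v4, 0, 0, 1]

theorem q5Mat_mul (c u2 u3 u4 v2 v3 v4 c' u2' u3' u4' v2' v3' v4' : ZMod 2) :
    q5Mat c u2 u3 u4 v2 v3 v4 * q5Mat c' u2' u3' u4' v2' v3' v4' =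
      q5Mat (c + c' + (u2 * v2' + u3 * v3' + u4 * v4')) (u2 + u2') (u3 + u3') (u4 + u4')
        (v2 + v2') (v3 + v3') (v4 + v4') := by
  ext i j
  fin_cases i <;> fin_cases j <;> simp [q5Mat, Matrix.mul_apply, Fin.sum_univ_five] <;> try ring

theorem q5Mat_zero : q5Mat 0 0 0 0 0 0 0 = 1 := by
  ext i j
  fin_cases i <;> fin_cases j <;> simp [q5Mat]

theorem q5Mat_col (c u2 u3 u4 v2 v3 v4 : ZMod 2) (a : Fin 5) :
    q5Mat c u2 u3 u4 v2 v3 v4 a 0 = if a = 0 then 1 else 0 := by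
  fin_cases a <;> rfl

theorem q5Mat_row (c u2 u3 u4 v2 v3 v4 : ZMod 2) (b : Fin 5) :
    q5Mat c u2 u3 u4 v2 v3 v4 1 b = if b = 1 then 1 else 0 := by
  fin_cases b <;> rfl

theorem q5Mat_B (c u2 u3 u4 v2 v3 v4 : ZMod 2) : t5B (q5Mat c u2 u3 u4 v2 v3 v4) = 1 := by
  ext i j
  fin_cases i <;> fin_cases j <;> simp [t5B, q5Mat]

theorem q5Mat_det (c u2 u3 u4 v2 v3 v4 : ZMod 2) : (q5Mat c u2 u3 u4 v2 v3 v4).det = 1 := by
  have h : q5Mat c u2 u3 u4 v2 v3 v4 *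
      q5Mat (c + (u2 * v2 + u3 * v3 + u4 * v4)) u2 u3 u4 v2 v3 v4 = 1 := by
    rw [q5Mat_mul, ← q5Mat_zero]
    have e : c + (c + (u2 * v2 + u3 * v3 + u4 * v4)) + (u2 * v2 + u3 * v3 + u4 * v4) = 0 := by
      have h1 := z2_double c
      have h2 := z2_double (u2 * v2 + u3 * v3 + u4 * v4)
      linear_combination h1 + h2
    rw [e, z2_double, z2_double, z2_double, z2_double, z2_double, z2_double]
  have h2 := congrArg Matrix.det h
  rw [Matrix.det_mul, Matrix.det_one] at h2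
  exact z2_unit _ _ h2

/-- the elements of the kernel -/
noncomputable def qEl (c u2 u3 u4 v2 v3 v4 : ZMod 2) : ↥A5 :=
  ⟨⟨q5Mat c u2 u3 u4 v2 v3 v4, q5Mat_det c u2 u3 u4 v2 v3 v4⟩,
    mem_A5 _ (q5Mat_col c u2 u3 u4 v2 v3 v4) (q5Mat_row c u2 u3 u4 v2 v3 v4)⟩

theorem qEl_val (c u2 u3 u4 v2 v3 v4 : ZMod 2) :
    (qEl c u2 u3 u4 v2 v3 v4).1.1 = q5Mat c u2 u3 u4 v2 v3 v4 := rfl

theorem qEl_mem (c u2 u3 u4 v2 v3 v4 : ZMod 2) : qEl c u2 u3 u4 v2 v3 v4 ∈ QA5 :=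
  (mem_QA5 _).2 (q5Mat_B c u2 u3 u4 v2 v3 v4)

theorem qEl_mul (c u2 u3 u4 v2 v3 v4 c' u2' u3' u4' v2' v3' v4' : ZMod 2) :
    qEl c u2 u3 u4 v2 v3 v4 * qEl c' u2' u3' u4' v2' v3' v4' =
      qEl (c + c' + (u2 * v2' + u3 * v3' + u4 * v4')) (u2 + u2') (u3 + u3') (u4 + u4')
        (v2 + v2') (v3 + v3') (v4 + v4') :=
  Subtype.ext (Subtype.ext (q5Mat_mul c u2 u3 u4 v2 v3 v4 c' u2' u3' u4' v2' v3' v4'))

theorem qEl_zero : qEl 0 0 0 0 0 0 0 = 1 := Subtype.ext (Subtype.ext q5Mat_zero)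

theorem qA_form (x : ↥A5) (hx : x ∈ QA5) :
    x = qEl (x.1.1 0 1) (x.1.1 0 2) (x.1.1 0 3) (x.1.1 0 4) (x.1.1 2 1) (x.1.1 3 1)
      (x.1.1 4 1) := by
  have hB := (mem_QA5 x).1 hx
  have hc := A5_col x
  have hr := A5_row x
  apply Subtype.ext
  apply Subtype.ext
  rw [qEl_val]
  ext a b
  fin_cases a <;> fin_cases b
  · exact hc 0
  · rfl
  · rfl
  · rfl
  · rfl
  · exact hc 1
  · exact hr 1
  · exact hr 2
  · exact hr 3
  · exact hr 4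
  · exact hc 2
  · rfl
  · exact (congrFun (congrFun hB 0) 0).trans (by simp [q5Mat])
  · exact (congrFun (congrFun hB 0) 1).trans (by simp [q5Mat])
  · exact (congrFun (congrFun hB 0) 2).trans (by simp [q5Mat])
  · exact hc 3
  · rfl
  · exact (congrFun (congrFun hB 1) 0).trans (by simp [q5Mat])
  · exact (congrFun (congrFun hB 1) 1).trans (by simp [q5Mat])
  · exact (congrFun (congrFun hB 1) 2).trans (by simp [q5Mat])
  · exact hc 4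
  · rfl
  · exact (congrFun (congrFun hB 2) 0).trans (by simp [q5Mat])
  · exact (congrFun (congrFun hB 2) 1).trans (by simp [q5Mat])
  · exact (congrFun (congrFun hB 2) 2).trans (by simp [q5Mat])

/-- the transvection as an element of its centralizer -/
noncomputable def s5A : ↥A5 := qEl 1 0 0 0 0 0 0

theorem tv01_eq : Matrix.transvection 0 1 1 = q5Mat 1 0 0 0 0 0 0 := by
  decide +kernel

theorem s5A_val : s5A.1 = s5 := Subtype.ext tv01_eq.symm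

theorem s5A_mem : s5A ∈ QA5 := qEl_mem _ _ _ _ _ _ _

theorem s5A_ne : s5A ≠ 1 := by
  intro h
  have h1 : q5Mat 1 0 0 0 0 0 0 = 1 := congrArg (fun t : ↥A5 => t.1.1) h
  have h2 := congrFun (congrFun h1 0) 1
  revert h2
  decide +kernel

theorem s5A_sq : s5A * s5A = 1 := by
  unfold s5A
  rw [qEl_mul, ← qEl_zero]
  congr 1 <;> decide

theorem s5A_cen (x : ↥A5) : x * s5A = s5A * x := by
  apply Subtype.ext
  rw [Subgroup.coe_mul, Subgroup.coe_mul, s5A_val]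
  exact ((Subgroup.mem_centralizer_iff.1 x.2) s5 (Set.mem_singleton _)).symm

theorem qA_comm_aux (c u2 u3 u4 v2 v3 v4 c' u2' u3' u4' v2' v3' v4' : ZMod 2) :
    qEl c u2 u3 u4 v2 v3 v4 * qEl c' u2' u3' u4' v2' v3' v4' =
        qEl c' u2' u3' u4' v2' v3' v4' * qEl c u2 u3 u4 v2 v3 v4 ∨
      qEl c u2 u3 u4 v2 v3 v4 * qEl c' u2' u3' u4' v2' v3' v4' =
        s5A * (qEl c' u2' u3' u4' v2' v3' v4' * qEl c u2 u3 u4 v2 v3 v4) := by
  unfold s5A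
  rw [qEl_mul, qEl_mul, qEl_mul]
  rcases z2_cases ((u2 * v2' + u3 * v3' + u4 * v4') + (u2' * v2 + u3' * v3 + u4' * v4))
    with hd | hd
  · left
    rw [z2_add_eq_zero _ _ hd]
    congr 1 <;> ring
  · right
    rw [z2_add_eq_one _ _ hd]
    congr 1 <;> ring

theorem qA_comm (p q : ↥A5) (hp : p ∈ QA5) (hq : q ∈ QA5) :
    p * q * p⁻¹ * q⁻¹ = 1 ∨ p * q * p⁻¹ * q⁻¹ = s5A := by
  rw [qA_form p hp, qA_form q hq]
  rcases qA_comm_aux (p.1.1 0 1) (p.1.1 0 2) (p.1.1 0 3) (p.1.1 0 4) (p.1.1 2 1) (p.1.1 3 1)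
      (p.1.1 4 1) (q.1.1 0 1) (q.1.1 0 2) (q.1.1 0 3) (q.1.1 0 4) (q.1.1 2 1) (q.1.1 3 1)
      (q.1.1 4 1) with h | h
  · left
    rw [h]
    group
  · right
    rw [h]
    group

theorem qA_nonab : ∃ a ∈ QA5, ∃ b ∈ QA5, a * b ≠ b * a := by
  refine ⟨qEl 0 1 0 0 0 0 0, qEl_mem _ _ _ _ _ _ _, qEl 0 0 0 0 1 0 0, qEl_mem _ _ _ _ _ _ _, ?_⟩
  rw [qEl_mul, qEl_mul]
  intro h
  have h1 := congrFun (congrFun (congrArg (fun t : ↥A5 => t.1.1) h) 0) 1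
  revert h1
  decide +kernel

end Cfsg.Agent.Helper3
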