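import Cfsg.Agent.Helper3.Fam.Trv5c
import Cfsg.Agent.Helper3.Pat.CentData

set_option autoImplicit false

namespace Cfsg.Agent.Helper3

open Cfsg

theorem tvL (M : Matrix (Fin 5) (Fin 5) (ZMod 2)) (i j a b : Fin 5) :
    (M * Matrix.transvection i j (1 : ZMod 2)) a b = M a b + if b = j then M a i else 0 := by
  unfold Matrix.transvection
  rw [Matrix.mul_add, Matrix.mul_one, Matrix.add_apply]
  congr 1
  by_cases hb : b = j
  · subst hb
    rw [Matrix.mul_single_apply_same, mul_one, if_pos rfl]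
  · rw [if_neg hb, Matrix.mul_apply]
    apply Finset.sum_eq_zero
    intro k _
    rw [Matrix.single_apply, if_neg, mul_zero]
    rintro ⟨-, h⟩
    exact hb h.symm

theorem tvR (M : Matrix (Fin 5) (Fin 5) (ZMod 2)) (i j a b : Fin 5) :
    (Matrix.transvection i j (1 : ZMod 2) * M) a b = M a b + if a = i then M j b else 0 := by
  unfold Matrix.transvection
  rw [Matrix.add_mul, Matrix.one_mul, Matrix.add_apply]
  congr 1
  by_cases ha : a = i
  · subst ha
    rw [Matrix.single_mul_apply_same, one_mul, if_pos rfl]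
  · rw [if_neg ha, Matrix.mul_apply]
    apply Finset.sum_eq_zero
    intro k _
    rw [Matrix.single_apply, if_neg, zero_mul]
    rintro ⟨h, -⟩
    exact ha h.symm

theorem tv02_eq : q5Mat 0 1 0 0 0 0 0 = Matrix.transvection 0 2 1 := by decide +kernel
theorem tv03_eq : q5Mat 0 0 1 0 0 0 0 = Matrix.transvection 0 3 1 := by decide +kernel
theorem tv04_eq : q5Mat 0 0 0 1 0 0 0 = Matrix.transvection 0 4 1 := by decide +kernel
theorem tv21_eq : q5Mat 0 0 0 0 1 0 0 = Matrix.transvection 2 1 1 := by decide +kernel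
theorem tv31_eq : q5Mat 0 0 0 0 0 1 0 = Matrix.transvection 3 1 1 := by decide +kernel
theorem tv41_eq : q5Mat 0 0 0 0 0 0 1 = Matrix.transvection 4 1 1 := by decide +kernel

theorem qA_row_of_comm (c : ↥A5) (j : Fin 5) (q : ↥A5)
    (hq : q.1.1 = Matrix.transvection 0 j 1) (h : c * q = q * c) (b : Fin 5) :
    c.1.1 j b = if b = j then 1 else 0 := by
  have h1 : c.1.1 * q.1.1 = q.1.1 * c.1.1 := congrArg (fun t : ↥A5 => t.1.1) h
  rw [hq] at h1
  have h2 := congrFun (congrFun h1 0) b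
  rw [tvL, tvR, if_pos rfl] at h2
  have h3 := add_left_cancel h2
  have h00 : c.1.1 0 0 = 1 := (A5_col c 0).trans (if_pos rfl)
  rw [← h3, h00]

theorem qA_u_of_comm (c : ↥A5) (j : Fin 5) (hj : j ≠ 0) (q : ↥A5)
    (hq : q.1.1 = Matrix.transvection j 1 1) (h : c * q = q * c) : c.1.1 0 j = 0 := by
  have h1 : c.1.1 * q.1.1 = q.1.1 * c.1.1 := congrArg (fun t : ↥A5 => t.1.1) h
  rw [hq] at h1
  have h2 := congrFun (congrFun h1 0) 1
  rw [tvL, tvR, if_pos rfl, if_neg hj.symm] at h2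
  exact add_left_cancel h2

theorem qA_self (c : ↥A5) (hc : ∀ q ∈ QA5, c * q = q * c) : c = 1 ∨ c = s5A := by
  have r2 := qA_row_of_comm c 2 (qEl 0 1 0 0 0 0 0) tv02_eq (hc _ (qEl_mem _ _ _ _ _ _ _))
  have r3 := qA_row_of_comm c 3 (qEl 0 0 1 0 0 0 0) tv03_eq (hc _ (qEl_mem _ _ _ _ _ _ _))
  have r4 := qA_row_of_comm c 4 (qEl 0 0 0 1 0 0 0) tv04_eq (hc _ (qEl_mem _ _ _ _ _ _ _))
  have hcQ : c ∈ QA5 := by
    rw [mem_QA5]
    ext i j
    fin_cases i <;> fin_cases j <;> simp [t5B, r2, r3, r4]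
  have u2 := qA_u_of_comm c 2 (by decide) (qEl 0 0 0 0 1 0 0) tv21_eq
    (hc _ (qEl_mem _ _ _ _ _ _ _))
  have u3 := qA_u_of_comm c 3 (by decide) (qEl 0 0 0 0 0 1 0) tv31_eq
    (hc _ (qEl_mem _ _ _ _ _ _ _))
  have u4 := qA_u_of_comm c 4 (by decide) (qEl 0 0 0 0 0 0 1) tv41_eq
    (hc _ (qEl_mem _ _ _ _ _ _ _))
  have v2 : c.1.1 2 1 = 0 := (r2 1).trans (if_neg (by decide))
  have v3 : c.1.1 3 1 = 0 := (r3 1).trans (if_neg (by decide))
  have v4 : c.1.1 4 1 = 0 := (r4 1).trans (if_neg (by decide))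
  have e := qA_form c hcQ
  rw [u2, u3, u4, v2, v3, v4] at e
  rcases z2_cases (c.1.1 0 1) with h | h
  · left
    rw [h] at e
    exact e.trans qEl_zero
  · right
    rw [h] at e
    exact e

/-- the elementary abelian subgroup of order 16 -/
noncomputable def e4Hom : Multiplicative (ZMod 2 × ZMod 2 × ZMod 2 × ZMod 2) →* ↥A5 where
  toFun p := qEl (Multiplicative.toAdd p).1 (Multiplicative.toAdd p).2.1
    (Multiplicative.toAdd p).2.2.1 (Multiplicative.toAdd p).2.2.2 0 0 0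
  map_one' := qEl_zero
  map_mul' p q := by
    rw [qEl_mul]
    congr 1 <;> simp

theorem e4Hom_inj : Function.Injective e4Hom := by
  intro p q h
  have h1 : q5Mat (Multiplicative.toAdd p).1 (Multiplicative.toAdd p).2.1
      (Multiplicative.toAdd p).2.2.1 (Multiplicative.toAdd p).2.2.2 0 0 0 =
    q5Mat (Multiplicative.toAdd q).1 (Multiplicative.toAdd q).2.1
      (Multiplicative.toAdd q).2.2.1 (Multiplicative.toAdd q).2.2.2 0 0 0 :=
    congrArg (fun t : ↥A5 => t.1.1) h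
  have a1 : (Multiplicative.toAdd p).1 = (Multiplicative.toAdd q).1 :=
    congrFun (congrFun h1 0) 1
  have a2 : (Multiplicative.toAdd p).2.1 = (Multiplicative.toAdd q).2.1 :=
    congrFun (congrFun h1 0) 2
  have a3 : (Multiplicative.toAdd p).2.2.1 = (Multiplicative.toAdd q).2.2.1 :=
    congrFun (congrFun h1 0) 3
  have a4 : (Multiplicative.toAdd p).2.2.2 = (Multiplicative.toAdd q).2.2.2 :=
    congrFun (congrFun h1 0) 4
  exact Multiplicative.toAdd.injective (Prod.ext a1 (Prod.ext a2 (Prod.ext a3 a4)))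

/-- the elementary abelian subgroup -/
noncomputable abbrev EA5 : Subgroup ↥A5 := e4Hom.range

theorem EA5_le : EA5 ≤ QA5 := by
  rintro _ ⟨p, rfl⟩
  exact qEl_mem _ _ _ _ _ _ _

theorem e4_sq (p : Multiplicative (ZMod 2 × ZMod 2 × ZMod 2 × ZMod 2)) : p ^ 2 = 1 := by
  revert p
  decide

theorem EA5_ea : IsElementaryAbelian 2 EA5 := by
  refine ⟨⟨⟨?_⟩⟩, ?_⟩
  · rintro ⟨_, p, rfl⟩ ⟨_, q, rfl⟩
    apply Subtype.ext
    show e4Hom p * e4Hom q = e4Hom q * e4Hom p
    rw [← map_mul, ← map_mul, mul_comm]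
  · rintro _ ⟨p, rfl⟩
    rw [← map_pow, e4_sq, map_one]

theorem EA5_card : Nat.card ↥EA5 = 16 := by
  rw [← Nat.card_congr (MonoidHom.ofInjective e4Hom_inj).toEquiv, Nat.card_eq_fintype_card]
  rfl

theorem A5_data : CData ↥A5 s5A QA5 EA5 KA5 where
  normal := MonoidHom.normal_ker t5rho
  card := QA5_card
  max := QA5_max
  s_mem := s5A_mem
  s_ne := s5A_ne
  s_sq := s5A_sq
  s_cen := s5A_cen
  comm := fun p hp q hq => qA_comm p q hp hq
  self := qA_self
  nonab := qA_nonab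
  E_le := EA5_le
  E_ea := EA5_ea
  E_card := EA5_card
  inf := QK_inf
  sup := QK_sup
  iso := KA5_iso

end Cfsg.Agent.Helper3
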